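import Mathlib

/-! Lattices in a rational positive definite quadratic space: duals, discriminants, cubic
positivity. -/

set_option autoImplicit false

namespace Cfsg.Agent.F23

open Module Finset

/-- The integers inside the rationals. -/
abbrev Z : Subring ℚ := ⊥

theorem memZ {q : ℚ} : q ∈ Z ↔ ∃ n : ℤ, (n : ℚ) = q := Subring.mem_bot

theorem intZ (n : ℤ) : (n : ℚ) ∈ Z := memZ.2 ⟨n, rfl⟩

theorem natZ (n : ℕ) : (n : ℚ) ∈ Z := memZ.2 ⟨n, by simp⟩

variable {V : Type*} [AddCommGroup V] [Module ℚ V]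

/-- A symmetric positive definite form. -/
structure PD (B : LinearMap.BilinForm ℚ V) : Prop where
  symm : ∀ x y, B x y = B y x
  pos : ∀ x, x ≠ 0 → 0 < B x x

namespace PD

variable {B : LinearMap.BilinForm ℚ V}

theorem nonneg (h : PD B) (x : V) : 0 ≤ B x x := by
  by_cases hx : x = 0
  · simp [hx]
  · exact (h.pos x hx).le

theorem eq_zero (h : PD B) {x : V} (hx : B x x = 0) : x = 0 := by
  by_contra h0
  exact (h.pos x h0).ne' hx

theorem isSymm (h : PD B) : B.IsSymm := ⟨fun x y => by simpa using h.symm x y⟩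

theorem nondeg (h : PD B) : B.Nondegenerate := by
  refine ⟨fun x hx => h.eq_zero (hx x), fun x hx => h.eq_zero (hx x)⟩

theorem ext (h : PD B) {x y : V} (hxy : ∀ z, B x z = B y z) : x = y := by
  have : B (x - y) (x - y) = 0 := by
    rw [map_sub B, LinearMap.sub_apply, hxy]; simp
  exact sub_eq_zero.1 (h.eq_zero this)

theorem smul (h : PD B) {c : ℚ} (hc : 0 < c) : PD (c • B) :=
  ⟨fun x y => by simp [h.symm x y], fun x hx => by
    simpa using mul_pos hc (h.pos x hx)⟩

theorem norm_add (h : PD B) (x y : V) : B (x + y) (x + y) = B x x + 2 * B x y + B y y := by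
  simp only [map_add, LinearMap.add_apply, h.symm y x]; ring

theorem norm_sub (h : PD B) (x y : V) : B (x - y) (x - y) = B x x - 2 * B x y + B y y := by
  simp only [map_sub, LinearMap.sub_apply, h.symm y x]; ring

/-- Two vectors of the same norm with extremal inner product agree. -/
theorem eq_of_ip (h : PD B) {x y : V} (h1 : B x x = B y y) (h2 : B x x ≤ B x y) : x = y := by
  have := h.norm_sub x y
  have h3 := h.nonneg (x - y)
  exact sub_eq_zero.1 (h.eq_zero (by linarith))

theorem eq_neg_of_ip (h : PD B) {x y : V} (h1 : B x x = B y y) (h2 : B x y ≤ - B x x) :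
    x = -y := by
  apply h.eq_of_ip
  · simpa using h1
  · simp; linarith

theorem exists_orth (h : PD B) [FiniteDimensional ℚ V] {n : ℕ} (hn : finrank ℚ V = n) :
    ∃ e : Basis (Fin n) ℚ V, ∀ i j, i ≠ j → B (e i) (e j) = 0 := by
  subst hn
  obtain ⟨e, he⟩ := LinearMap.BilinForm.exists_orthogonal_basis (B := B)
    ⟨fun x y => by simpa using h.symm x y⟩
  exact ⟨e, fun i j hij => he hij⟩

theorem orth_expand {n : ℕ} (e : Basis (Fin n) ℚ V)
    (he : ∀ i j, i ≠ j → B (e i) (e j) = 0) (x y : V) :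
    B x y = ∑ i, B (e i) (e i) * (e.repr x i * e.repr y i) := by
  conv_lhs => rw [← e.sum_repr x, ← e.sum_repr y]
  simp only [map_sum, map_smul, LinearMap.sum_apply, LinearMap.smul_apply, smul_eq_mul]
  refine sum_congr rfl fun j _ => ?_
  rw [Finset.sum_eq_single j]
  · ring
  · intro i _ hij; rw [he i j hij]; ring
  · simp

/-- Cubic positivity. -/
theorem cube_nonneg (h : PD B) [FiniteDimensional ℚ V] {ι : Type*} [Fintype ι] (z : ι → V) :
    0 ≤ ∑ a, ∑ b, (B (z a) (z b)) ^ 3 := by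
  obtain ⟨e, he⟩ := h.exists_orth rfl
  set w : Fin (finrank ℚ V) → ℚ := fun i => B (e i) (e i) with hw
  have hw0 : ∀ i, 0 ≤ w i := fun i => h.nonneg _
  set c : ι → Fin (finrank ℚ V) → ℚ := fun a i => e.repr (z a) i with hc
  have key : ∑ a, ∑ b, (B (z a) (z b)) ^ 3 =
      ∑ i, ∑ j, ∑ k, (w i * w j * w k) * (∑ a, c a i * c a j * c a k) ^ 2 := by
    have h1 : ∀ a b, (B (z a) (z b)) ^ 3 = ∑ i, ∑ j, ∑ k,
        (w i * w j * w k) * ((c a i * c a j * c a k) * (c b i * c b j * c b k)) := by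
      intro a b
      rw [orth_expand e he (z a) (z b), pow_three]
      simp only [Finset.sum_mul, Finset.mul_sum]
      refine sum_congr rfl fun i _ => sum_congr rfl fun j _ => sum_congr rfl fun k _ => ?_
      simp only [hw, hc]; ring
    simp only [h1, sq, Finset.sum_mul, Finset.mul_sum]
    have h2 : ∀ f : ι → ι → Fin (finrank ℚ V) → Fin (finrank ℚ V) → Fin (finrank ℚ V) → ℚ,
        ∑ a, ∑ b, ∑ i, ∑ j, ∑ k, f a b i j k = ∑ i, ∑ j, ∑ k, ∑ a, ∑ b, f a b i j k := by
      intro f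
      simp only [← Fintype.sum_prod_type']
      let E : ι × ι × Fin (finrank ℚ V) × Fin (finrank ℚ V) × Fin (finrank ℚ V) ≃
          Fin (finrank ℚ V) × Fin (finrank ℚ V) × Fin (finrank ℚ V) × ι × ι :=
        ⟨fun p => (p.2.2.1, p.2.2.2.1, p.2.2.2.2, p.1, p.2.1),
         fun p => (p.2.2.2.1, p.2.2.2.2, p.1, p.2.1, p.2.2.1), fun _ => rfl, fun _ => rfl⟩
      exact Fintype.sum_equiv E _ _ fun _ => rfl
    rw [h2]
    refine sum_congr rfl fun i _ => sum_congr rfl fun j _ => sum_congr rfl fun k _ => ?_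
    rw [Finset.sum_comm]
  rw [key]
  refine sum_nonneg fun i _ => sum_nonneg fun j _ => sum_nonneg fun k _ => ?_
  exact mul_nonneg (mul_nonneg (mul_nonneg (hw0 i) (hw0 j)) (hw0 k)) (sq_nonneg _)

end PD

/-- The dual of a `ℤ`-submodule. -/
def dual (B : LinearMap.BilinForm ℚ V) (L : Submodule ℤ V) : Submodule ℤ V where
  carrier := {x | ∀ y ∈ L, B x y ∈ Z}
  add_mem' {a b} ha hb y hy := by simpa using add_mem (ha y hy) (hb y hy)
  zero_mem' y _ := by simp
  smul_mem' r a ha y hy := by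
    have : B (r • a) y = (r : ℚ) * B a y := by simp
    rw [this]; exact mul_mem (intZ r) (ha y hy)

theorem mem_dual {B : LinearMap.BilinForm ℚ V} {L : Submodule ℤ V} {x : V} :
    x ∈ dual B L ↔ ∀ y ∈ L, B x y ∈ Z := Iff.rfl

theorem dual_anti {B : LinearMap.BilinForm ℚ V} {L M : Submodule ℤ V} (h : L ≤ M) :
    dual B M ≤ dual B L := fun _ hx y hy => hx y (h hy)

theorem dual_eq (B : LinearMap.BilinForm ℚ V) (L : Submodule ℤ V) :
    dual B L = B.dualSubmodule L := by
  ext x
  simp only [mem_dual, LinearMap.BilinForm.mem_dualSubmodule, Submodule.mem_one, memZ]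
  rfl

/-- Lattices. -/
abbrev Lat (L : Submodule ℤ V) : Prop := Submodule.IsLattice ℚ L

theorem lat_span {ι : Type*} [Finite ι] (b : Basis ι ℚ V) :
    Lat (Submodule.span ℤ (Set.range b)) :=
  ⟨Submodule.fg_span (Set.finite_range _), by
    rw [Submodule.span_span_of_tower, b.span_eq]⟩

theorem Lat.exists_basis {L : Submodule ℤ V} (hL : Lat L) {n : ℕ} [FiniteDimensional ℚ V]
    (hn : finrank ℚ V = n) : ∃ b : Basis (Fin n) ℚ V, L = Submodule.span ℤ (Set.range b) := by
  have hr : finrank ℤ L = n := by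
    rw [← hn]
    unfold finrank
    rw [Submodule.IsLattice.rank' ℚ L]
  let b0 := Module.finBasisOfFinrankEq ℤ L hr
  refine ⟨b0.extendOfIsLattice ℚ, ?_⟩
  have : Set.range (b0.extendOfIsLattice ℚ) = L.subtype '' Set.range b0 := by
    rw [← Set.range_comp]; congr 1; ext i; simp
  rw [this, ← Submodule.map_span, b0.span_eq, Submodule.map_top, Submodule.range_subtype]

theorem Lat.dual {B : LinearMap.BilinForm ℚ V} (h : PD B) [FiniteDimensional ℚ V]
    {L : Submodule ℤ V} (hL : Lat L) : Lat (dual B L) := by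
  classical
  obtain ⟨b, rfl⟩ := hL.exists_basis rfl
  rw [dual_eq, LinearMap.BilinForm.dualSubmodule_span_of_basis B h.nondeg]
  exact lat_span _

theorem Lat.between {L M N : Submodule ℤ V} (hL : Lat L) (hN : Lat N) (h1 : L ≤ M) (h2 : M ≤ N) :
    Lat M :=
  Submodule.IsLattice.of_le_of_isLattice_of_fg ℚ h1 (Submodule.FG.of_le hN.fg h2)

theorem Lat.exists_nsmul {L : Submodule ℤ V} (hL : Lat L) (x : V) :
    ∃ m : ℕ, 0 < m ∧ (m : ℤ) • x ∈ L := by
  have hx : x ∈ Submodule.span ℚ (L : Set V) := by rw [hL.span_eq_top]; trivial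
  induction hx using Submodule.span_induction with
  | mem y hy => exact ⟨1, one_pos, by simpa using hy⟩
  | zero => exact ⟨1, one_pos, by simp⟩
  | add a b _ _ ha hb =>
    obtain ⟨m, hm, ha⟩ := ha
    obtain ⟨k, hk, hb⟩ := hb
    refine ⟨m * k, mul_pos hm hk, ?_⟩
    have : ((m * k : ℕ) : ℤ) • (a + b) = (k : ℤ) • ((m : ℤ) • a) + (m : ℤ) • ((k : ℤ) • b) := by
      push_cast; simp only [smul_add, smul_smul]; rw [mul_comm (k : ℤ)]
    rw [this]
    exact add_mem (L.smul_mem _ ha) (L.smul_mem _ hb)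
  | smul q a _ ha =>
    obtain ⟨m, hm, ha⟩ := ha
    refine ⟨m * q.den, mul_pos hm q.den_pos, ?_⟩
    have : ((m * q.den : ℕ) : ℤ) • (q • a) = q.num • ((m : ℤ) • a) := by
      rw [← Int.cast_smul_eq_zsmul ℚ, ← Int.cast_smul_eq_zsmul ℚ, ← Int.cast_smul_eq_zsmul ℚ,
        smul_smul, smul_smul]
      congr 1
      push_cast
      rw [mul_assoc, Rat.den_mul_eq_num]; ring
    rw [this]
    exact L.smul_mem _ ha

/-- A sublattice containing a multiple of a lattice is a lattice. -/
theorem Lat.of_smul_le {L M : Submodule ℤ V} (hL : Lat L) (h1 : M ≤ L) {m : ℤ} (hm : m ≠ 0)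
    (h2 : ∀ x ∈ L, m • x ∈ M) : Lat M := by
  refine ⟨Submodule.FG.of_le hL.fg h1, ?_⟩
  rw [eq_top_iff, ← hL.span_eq_top, Submodule.span_le]
  intro x hx
  have : x = (m : ℚ)⁻¹ • (m • x) := by
    rw [← Int.cast_smul_eq_zsmul ℚ, smul_smul, inv_mul_cancel₀ (by exact_mod_cast hm), one_smul]
  rw [this]
  exact Submodule.smul_mem _ _ (Submodule.subset_span (h2 x hx))

theorem Lat.eq_zero {L : Submodule ℤ V} (hL : Lat L) {W : Type*} [AddCommGroup W] [Module ℚ W]
    {f : V →ₗ[ℚ] W} (hf : ∀ x ∈ L, f x = 0) : f = 0 :=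
  LinearMap.ext_on hL.span_eq_top fun x hx => hf x hx

theorem gram_change (B : LinearMap.BilinForm ℚ V) {n : ℕ} (b c : Basis (Fin n) ℚ V) :
    (LinearMap.BilinForm.toMatrix c B).det =
      (b.det c) ^ 2 * (LinearMap.BilinForm.toMatrix b B).det := by
  rw [← LinearMap.BilinForm.toMatrix_mul_basis_toMatrix b c B, Matrix.det_mul, Matrix.det_mul,
    Matrix.det_transpose, Basis.det_apply]
  ring

theorem PD.gram_pos {B : LinearMap.BilinForm ℚ V} (h : PD B) {n : ℕ} (c : Basis (Fin n) ℚ V) :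
    0 < (LinearMap.BilinForm.toMatrix c B).det := by
  have := c.finiteDimensional_of_finite
  obtain ⟨e, he⟩ := h.exists_orth (n := n) (by simpa using finrank_eq_card_basis c)
  rw [gram_change B e c]
  have h1 : LinearMap.BilinForm.toMatrix e B = Matrix.diagonal fun i => B (e i) (e i) := by
    ext i j
    rw [LinearMap.BilinForm.toMatrix_apply]
    by_cases hij : i = j
    · subst hij; simp
    · rw [he i j hij, Matrix.diagonal_apply_ne _ hij]
  rw [h1, Matrix.det_diagonal]
  refine mul_pos (pow_pos_iff_ne (e.isUnit_det c).ne_zero) (prod_pos fun i _ => h.pos _ (e.ne_zero i))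
where pow_pos_iff_ne {a : ℚ} (ha : a ≠ 0) : 0 < a ^ 2 := by positivity

open Classical in
/-- The discriminant of a lattice. -/
noncomputable def disc (n : ℕ) (B : LinearMap.BilinForm ℚ V) (L : Submodule ℤ V) : ℚ :=
  if h : ∃ b : Basis (Fin n) ℚ V, L = Submodule.span ℤ (Set.range b) then
    (LinearMap.BilinForm.toMatrix h.choose B).det else 0

theorem disc_spec [FiniteDimensional ℚ V] {n : ℕ} (hn : finrank ℚ V = n) {L : Submodule ℤ V}
    (hL : Lat L) : ∃ b : Basis (Fin n) ℚ V, L = Submodule.span ℤ (Set.range b) ∧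
      ∀ B : LinearMap.BilinForm ℚ V, disc n B L = (LinearMap.BilinForm.toMatrix b B).det := by
  have h := hL.exists_basis hn
  exact ⟨h.choose, h.choose_spec, fun B => by rw [disc, dif_pos h]⟩

theorem disc_pos [FiniteDimensional ℚ V] {n : ℕ} (hn : finrank ℚ V = n) {L : Submodule ℤ V}
    (hL : Lat L) {B : LinearMap.BilinForm ℚ V} (h : PD B) : 0 < disc n B L := by
  obtain ⟨b, -, hb⟩ := disc_spec hn hL
  rw [hb]; exact h.gram_pos b

theorem disc_smul [FiniteDimensional ℚ V] {n : ℕ} (hn : finrank ℚ V = n) {L : Submodule ℤ V}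
    (hL : Lat L) (B : LinearMap.BilinForm ℚ V) (c : ℚ) :
    disc n (c • B) L = c ^ n * disc n B L := by
  obtain ⟨b, -, hb⟩ := disc_spec hn hL
  rw [hb, hb, map_smul, Matrix.det_smul, Fintype.card_fin]

theorem disc_int [FiniteDimensional ℚ V] {n : ℕ} (hn : finrank ℚ V = n) {L : Submodule ℤ V}
    (hL : Lat L) {B : LinearMap.BilinForm ℚ V} (hi : L ≤ dual B L) : disc n B L ∈ Z := by
  obtain ⟨b, hLb, hb⟩ := disc_spec hn hL
  have hm : ∀ i, b i ∈ L := fun i => hLb ▸ Submodule.subset_span ⟨i, rfl⟩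
  rw [hb, Matrix.det_apply']
  refine sum_mem fun s _ => mul_mem (intZ _) (prod_mem fun i _ => ?_)
  rw [LinearMap.BilinForm.toMatrix_apply]
  exact hi (hm _) _ (hm _)

theorem disc_le [FiniteDimensional ℚ V] {n : ℕ} (hn : finrank ℚ V = n) {L M : Submodule ℤ V}
    (hL : Lat L) (hM : Lat M) (hle : L ≤ M) (B : LinearMap.BilinForm ℚ V) :
    disc n B L = (L.toAddSubgroup.relIndex M.toAddSubgroup : ℚ) ^ 2 * disc n B M := by
  obtain ⟨b, hLb, hb⟩ := disc_spec hn hL
  obtain ⟨c, hMc, hc⟩ := disc_spec hn hM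
  rw [hb, hc, gram_change B c b, AddSubgroup.relIndex_eq_abs_det L.toAddSubgroup M.toAddSubgroup
    hle b c (by rw [hLb, Submodule.span_int_eq_addSubgroupClosure])
    (by rw [hMc, Submodule.span_int_eq_addSubgroupClosure]), sq_abs]

end Cfsg.Agent.F23
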