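import Mathlib
import Cfsg.Agent.F23.Lat
import Cfsg.Agent.S1632
import Cfsg.Agent.S0406
import Cfsg.Agent.S0400
import Cfsg.Agent.S0401
import Cfsg.Agent.Spor.LeechFrame

/-! Even unimodular rootless lattices of rank 24 in a rational space are Leech lattices. -/

set_option autoImplicit false

namespace Cfsg.Agent.F23

open Module Finset Matrix

variable {W : Type*} [AddCommGroup W] [Module ℚ W]

/-- An even unimodular rootless lattice of rank 24. -/
structure Uni (B : LinearMap.BilinForm ℚ W) (N : Submodule ℤ W) : Prop where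
  dim : finrank ℚ W = 24
  pd : PD B
  lat : Lat N
  self : dual B N ≤ N
  even : ∀ x ∈ N, ∃ k : ℤ, B x x = 2 * k
  rootless : ∀ x ∈ N, B x x ≠ 2

theorem int_of_even {B : LinearMap.BilinForm ℚ W} (h : PD B) {N : Submodule ℤ W}
    (he : ∀ x ∈ N, ∃ k : ℤ, B x x = 2 * k) : N ≤ dual B N := by
  intro x hx y hy
  obtain ⟨a, ha⟩ := he x hx
  obtain ⟨b, hb⟩ := he y hy
  obtain ⟨c, hc⟩ := he (x + y) (add_mem hx hy)
  rw [h.norm_add] at hc
  exact memZ.2 ⟨c - a - b, by push_cast; linarith⟩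

theorem Uni.coords {B : LinearMap.BilinForm ℚ W} {N : Submodule ℤ W} (h : Uni B N) :
    ∃ (c : (Fin 24 → ℤ) ≃+ N) (A : Matrix (Fin 24) (Fin 24) ℤ), A.det = 1 ∧ A.IsSymm ∧
      ∀ x y, ((x ⬝ᵥ (A *ᵥ y) : ℤ) : ℚ) = B (c x) (c y) := by
  classical
  have hfd : FiniteDimensional ℚ W := Module.finite_of_finrank_pos (by rw [h.dim]; norm_num)
  obtain ⟨b, hb⟩ := h.lat.exists_basis h.dim
  have hint := int_of_even h.pd h.even
  have hm : ∀ i, b i ∈ N := fun i => hb ▸ Submodule.subset_span ⟨i, rfl⟩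
  have hA : ∀ i j, ∃ n : ℤ, (n : ℚ) = B (b i) (b j) := fun i j => memZ.1 (hint (hm i) _ (hm j))
  choose A hA using hA
  have hnd := h.pd.nondeg
  have hd : ∀ i, B.dualBasis hnd b i ∈ Submodule.span ℤ (Set.range b) := by
    intro i
    rw [← hb]
    apply h.self
    rw [hb, dual_eq, LinearMap.BilinForm.dualSubmodule_span_of_basis B hnd]
    exact Submodule.subset_span ⟨i, rfl⟩
  have hC : ∀ i, ∃ f : Fin 24 → ℤ, ∑ j, f j • b j = B.dualBasis hnd b i := fun i =>
    (Submodule.mem_span_range_iff_exists_fun _).1 (hd i)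
  choose C hC using hC
  have hCA : Matrix.of C * Matrix.of A = 1 := by
    ext i k
    have h1 : B (B.dualBasis hnd b i) (b k) = if k = i then 1 else 0 :=
      LinearMap.BilinForm.apply_dualBasis_left hnd b i k
    rw [← hC i] at h1
    simp only [map_sum, map_zsmul, LinearMap.sum_apply, LinearMap.smul_apply, zsmul_eq_mul,
      ← hA] at h1
    have h2 : (((Matrix.of C * Matrix.of A) i k : ℤ) : ℚ) = ((1 : Matrix _ _ ℤ) i k : ℤ) := by
      rw [Matrix.mul_apply]
      push_cast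
      simp only [Matrix.of_apply]
      rw [h1, Matrix.one_apply]
      by_cases hik : i = k
      · simp [hik]
      · simp [hik, Ne.symm hik]
    exact_mod_cast h2
  have hdet : (Matrix.of A).det = 1 := by
    have h1 : (Matrix.of C).det * (Matrix.of A).det = 1 := by
      rw [← Matrix.det_mul, hCA, Matrix.det_one]
    have h2 : (0 : ℚ) < ((Matrix.of A).det : ℤ) := by
      have := h.pd.gram_pos b
      have h3 : LinearMap.BilinForm.toMatrix b B = (Matrix.of A).map (Int.castRingHom ℚ) := by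
        ext i j; simp [hA]
      rw [h3] at this
      have h4 := (Int.castRingHom ℚ).map_det (Matrix.of A)
      simp only [RingHom.mapMatrix_apply] at h4
      rw [← h4] at this
      simpa using this
    have h3 : 0 < (Matrix.of A).det := by exact_mod_cast h2
    rcases Int.eq_one_or_neg_one_of_mul_eq_one' h1 with h4 | h4
    · exact h4.2
    · omega
  subst hb
  let e := (b.restrictScalars ℤ).equivFun.symm.toAddEquiv
  have he : ∀ x : Fin 24 → ℤ, ((e x : Submodule.span ℤ (Set.range b)) : W) = ∑ i, x i • b i := by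
    intro x
    simp [e, Basis.equivFun_symm_apply]
  refine ⟨e, Matrix.of A, hdet, ?_, fun x y => ?_⟩
  · ext i j
    have : ((A j i : ℤ) : ℚ) = A i j := by rw [hA, hA, h.pd.symm]
    simpa using this
  · rw [he, he]
    simp only [map_sum, map_zsmul, LinearMap.sum_apply, LinearMap.smul_apply, zsmul_eq_mul,
      ← hA, dotProduct, mulVec, Matrix.of_apply]
    push_cast
    simp only [Finset.mul_sum]
    rw [Finset.sum_comm]
    refine sum_congr rfl fun i _ => sum_congr rfl fun j _ => by ring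

theorem Uni.leech {B : LinearMap.BilinForm ℚ W} {N : Submodule ℤ W} (h : Uni B N) :
    (∃ φ : N ≃+ Cfsg.leechLattice, ∀ x : N,
      (Cfsg.sqNorm ((φ x : Cfsg.leechLattice) : Cfsg.GolayPt → ℤ) : ℚ) = 8 * B x x) ∧
    ∀ e ∈ N, B e e = 8 → ∃ l ∈ N, B l l = 4 ∧ B l e = 4 := by
  obtain ⟨c, A, hdet, hs, hc⟩ := h.coords
  have hpos : ∀ x : Fin 24 → ℤ, x ≠ 0 → 0 < x ⬝ᵥ (A *ᵥ x) := by
    intro x hx
    have h1 : ((c x : N) : W) ≠ 0 := by
      intro h0
      apply hx
      apply c.injective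
      rw [map_zero]
      exact Subtype.ext h0
    have := h.pd.pos _ h1
    rw [← hc] at this
    exact_mod_cast this
  have hev : ∀ x : Fin 24 → ℤ, (2 : ℤ) ∣ x ⬝ᵥ (A *ᵥ x) := by
    intro x
    obtain ⟨k, hk⟩ := h.even _ (c x).2
    rw [← hc] at hk
    exact ⟨k, by exact_mod_cast hk⟩
  have h2 : ∀ x : Fin 24 → ℤ, x ⬝ᵥ (A *ᵥ x) ≠ 2 := by
    intro x hx
    apply h.rootless _ (c x).2
    rw [← hc, hx]; norm_num
  obtain ⟨h4, h6, h8⟩ := Cfsg.Agent.S1632.result A hs hpos hev hdet h2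
  refine ⟨?_, fun e he h8e => ?_⟩
  · obtain ⟨f, hf⟩ := Cfsg.Agent.S0406.result A hs hpos hev h2 h4 h6 h8
    refine ⟨c.symm.trans f, fun x => ?_⟩
    rw [AddEquiv.trans_apply, hf]
    push_cast
    rw [hc, AddEquiv.apply_symm_apply]
  · have hR := Cfsg.Agent.Spor.Leech.rootless_matForm hs hpos hev h2
    have hF := Cfsg.Agent.Spor.Leech.full_matForm h4 h6 h8
    have hq : ∀ x y, ((Cfsg.Agent.Spor.Leech.matForm A x y : ℤ) : ℚ) = 8 * B (c x) (c y) := by
      intro x y
      rw [Cfsg.Agent.Spor.Leech.matForm_apply]; push_cast; rw [hc]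
    set x := c.symm ⟨e, he⟩ with hx
    have hcx : ((c x : N) : W) = e := by simp [hx]
    have hx64 : Cfsg.Agent.Spor.Leech.matForm A x x = 64 := by
      have := hq x x
      rw [hcx, h8e] at this
      exact_mod_cast this
    obtain ⟨f, hf1, hf2, hf3, hf4⟩ := hR.exists_frame (by norm_num) hF (ι := Fin 24) (by simp) hx64
    obtain ⟨i, hi⟩ := hf4 x hx64 ⟨0, by simp⟩
    obtain ⟨j, hj⟩ := exists_ne i
    obtain ⟨z, hz⟩ := hf3 j
    have hjx : Cfsg.Agent.Spor.Leech.matForm A x (f j) = 0 := by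
      rcases hi with hi | hi
      · rw [hi]; exact hf2 i j hj.symm
      · rw [hi]; simp [hf2 i j hj.symm]
    have hzx : Cfsg.Agent.Spor.Leech.matForm A z x = 32 := by
      have h1 : Cfsg.Agent.Spor.Leech.matForm A (x - f j) x = 64 := by
        rw [map_sub, AddMonoidHom.sub_apply, hx64, hR.symm, hjx]; norm_num
      rw [hz, map_nsmul, AddMonoidHom.nsmul_apply] at h1
      simp only [nsmul_eq_mul, Nat.cast_ofNat] at h1
      omega
    have hzz : Cfsg.Agent.Spor.Leech.matForm A z z = 32 := by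
      have h1 : Cfsg.Agent.Spor.Leech.matForm A (x - f j) (x - f j) = 128 := by
        simp only [map_sub, AddMonoidHom.sub_apply, hx64, hf1, hjx, hR.symm (f j) x]; norm_num
      rw [hz, two_nsmul] at h1
      simp only [map_add, AddMonoidHom.add_apply] at h1
      omega
    refine ⟨c z, (c z).2, ?_, ?_⟩
    · have := hq z z
      rw [hzz] at this
      push_cast at this
      linarith
    · have := hq z x
      rw [hzx, hcx] at this
      push_cast at this
      linarith

/-- A group of isometries of such a lattice fixing a vector maps to the stabiliser in `Co0` of any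
Leech vector in the same orbit. -/
theorem Uni.embed {B : LinearMap.BilinForm ℚ W} {N : Submodule ℤ W} (h : Uni B N)
    {G : Type*} [Group G] (ψ : G →* Module.End ℚ W) (hN : ∀ g, ∀ x ∈ N, ψ g x ∈ N)
    (hB : ∀ g x, B (ψ g x) (ψ g x) = B x x) {w : W} (hw : w ∈ N) (hfix : ∀ g, ψ g w = w)
    (t : Cfsg.leechLattice)
    (ht : ∀ v : Cfsg.leechLattice, (Cfsg.sqNorm (v : Cfsg.GolayPt → ℤ) : ℚ) = 8 * B w w →
      ∃ g : Cfsg.Co0, g • v = t) :
    ∃ f : G →* ↥(Cfsg.Co0 ⊓ MulAction.stabilizer (Equiv.Perm Cfsg.leechLattice) t),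
      ∀ g, f g = 1 → ψ g = 1 := by
  obtain ⟨⟨φ0, hφ0⟩, -⟩ := h.leech
  obtain ⟨a, ha⟩ := ht (φ0 ⟨w, hw⟩) (hφ0 _)
  let a' : Cfsg.leechLattice ≃+ Cfsg.leechLattice := ⟨a.1, a.2.1⟩
  let φ := φ0.trans a'
  have hφ : ∀ x : N, (Cfsg.sqNorm ((φ x : Cfsg.leechLattice) : Cfsg.GolayPt → ℤ) : ℚ) =
      8 * B x x := by
    intro x
    rw [← hφ0]
    exact congrArg _ (a.2.2 _)
  have hφw : φ ⟨w, hw⟩ = t := ha
  let r : G → N → N := fun g x => ⟨ψ g x, hN g x x.2⟩
  have r1 : ∀ x, r 1 x = x := fun x => Subtype.ext (by simp [r])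
  have rmul : ∀ g k x, r (g * k) x = r g (r k x) := fun g k x => Subtype.ext (by simp [r])
  have radd : ∀ g x y, r g (x + y) = r g x + r g y := fun g x y => Subtype.ext (by simp [r])
  let p : G → Equiv.Perm Cfsg.leechLattice := fun g =>
    ⟨fun v => φ (r g (φ.symm v)), fun v => φ (r g⁻¹ (φ.symm v)),
      fun v => by simp [← rmul, r1], fun v => by simp [← rmul, r1]⟩
  have pa : ∀ g v, p g v = φ (r g (φ.symm v)) := fun g v => rfl
  have hp : ∀ g, p g ∈ Cfsg.Co0 ⊓ MulAction.stabilizer (Equiv.Perm Cfsg.leechLattice) t := by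
    intro g
    refine ⟨⟨fun v v' => ?_, fun v => ?_⟩, ?_⟩
    · rw [pa, pa, pa, map_add, radd, map_add]
    · have h1 := hφ (r g (φ.symm v))
      have h2 := hφ (φ.symm v)
      rw [AddEquiv.apply_symm_apply] at h2
      have h3 : B (r g (φ.symm v)) (r g (φ.symm v)) = B (φ.symm v) (φ.symm v) := hB g _
      rw [h3, ← h2] at h1
      rw [pa]
      exact_mod_cast h1
    · show p g t = t
      rw [pa, ← hφw, AddEquiv.symm_apply_apply]
      congr 1
      exact Subtype.ext (hfix g)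
  refine ⟨MonoidHom.mk' (fun g => ⟨p g, hp g⟩) fun g k => Subtype.ext ?_, fun g hg => ?_⟩
  · ext v
    simp [pa, rmul]
  · have h1 : p g = 1 := congrArg Subtype.val hg
    have h2 : ψ g - 1 = 0 := h.lat.eq_zero fun x hx => by
      have h3 := pa g (φ ⟨x, hx⟩)
      rw [h1, AddEquiv.symm_apply_apply] at h3
      have h4 := congrArg Subtype.val (φ.injective h3)
      simp only [r] at h4
      simp [← h4]
    exact sub_eq_zero.1 h2

end Cfsg.Agent.F23
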