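import Mathlib
import Cfsg.Agent.F23.Lat

/-! Irreducible rational representations of degree 23: Schur's lemma and orthogonality. -/

set_option autoImplicit false

namespace Cfsg.Agent.F23

open Module Finset

variable {G : Type*} [Group G] {V : Type*} [AddCommGroup V] [Module ℚ V]

/-- Irreducibility. -/
def Irr (ρ : G →* Module.End ℚ V) : Prop :=
  ∀ W : Submodule ℚ V, (∀ g, ∀ w ∈ W, ρ g w ∈ W) → W = ⊥ ∨ W = ⊤

theorem rho_mul (ρ : G →* Module.End ℚ V) (g h : G) (x : V) : ρ (g * h) x = ρ g (ρ h x) := by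
  simp

theorem rho_inv_left (ρ : G →* Module.End ℚ V) (g : G) (x : V) : ρ g⁻¹ (ρ g x) = x := by
  rw [← rho_mul]; simp

theorem rho_inv_right (ρ : G →* Module.End ℚ V) (g : G) (x : V) : ρ g (ρ g⁻¹ x) = x := by
  rw [← rho_mul]; simp

theorem rho_ne_zero (ρ : G →* Module.End ℚ V) (g : G) {x : V} (hx : x ≠ 0) : ρ g x ≠ 0 := by
  intro h
  apply hx
  rw [← rho_inv_left ρ g x, h, map_zero]

theorem Irr.no_line {ρ : G →* Module.End ℚ V} (hi : Irr ρ) (hd : finrank ℚ V = 23) {x : V}
    (hx : x ≠ 0) (h : ∀ g, ∃ c : ℚ, ρ g x = c • x) : False := by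
  rcases hi (Submodule.span ℚ {x}) (fun g w hw => by
    obtain ⟨a, rfl⟩ := Submodule.mem_span_singleton.1 hw
    obtain ⟨c, hc⟩ := h g
    rw [map_smul, hc]
    exact Submodule.smul_mem _ _ (Submodule.smul_mem _ _ (Submodule.mem_span_singleton_self x)))
    with h1 | h1
  · exact hx (Submodule.span_singleton_eq_bot.1 h1)
  · have := finrank_span_singleton (K := ℚ) hx
    rw [h1, finrank_top, hd] at this
    omega

theorem skew_degenerate (hd : finrank ℚ V = 23) (C : LinearMap.BilinForm ℚ V)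
    (hC : ∀ x y, C x y = - C y x) : ∃ x, x ≠ 0 ∧ ∀ y, C x y = 0 := by
  have hfd : FiniteDimensional ℚ V := Module.finite_of_finrank_pos (by rw [hd]; norm_num)
  let e := Module.finBasisOfFinrankEq ℚ V hd
  have h1 : (LinearMap.BilinForm.toMatrix e C).transpose = -LinearMap.BilinForm.toMatrix e C := by
    ext i j
    simp only [Matrix.transpose_apply, Matrix.neg_apply, LinearMap.BilinForm.toMatrix_apply]
    exact hC _ _
  have h2 : (LinearMap.BilinForm.toMatrix e C).det = 0 := by
    have := Matrix.det_transpose (LinearMap.BilinForm.toMatrix e C)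
    rw [h1, Matrix.det_neg, Fintype.card_fin] at this
    norm_num at this
    linarith
  by_contra hne
  push Not at hne
  refine (LinearMap.BilinForm.nondegenerate_iff_det_ne_zero e).1 ?_ h2
  refine ⟨fun x hx => ?_, fun x hx => ?_⟩
  · by_contra h0
    obtain ⟨y, hy⟩ := hne x h0
    exact hy (hx y)
  · by_contra h0
    obtain ⟨y, hy⟩ := hne x h0
    apply hy
    rw [hC, hx y, neg_zero]

theorem schur {ρ : G →* Module.End ℚ V} (hi : Irr ρ) (hd : finrank ℚ V = 23)
    {B : LinearMap.BilinForm ℚ V} (hB : PD B) (hinv : ∀ g x y, B (ρ g x) (ρ g y) = B x y)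
    (T : Module.End ℚ V) (hT : ∀ g, ρ g * T = T * ρ g) : ∃ c : ℚ, T = c • 1 := by
  have hfd : FiniteDimensional ℚ V := Module.finite_of_finrank_pos (by rw [hd]; norm_num)
  have hnt : Nontrivial V := Module.nontrivial_of_finrank_pos (R := ℚ) (by rw [hd]; norm_num)
  let D : Subalgebra ℚ (Module.End ℚ V) := Subalgebra.centralizer ℚ (Set.range ρ)
  have hD : ∀ S : Module.End ℚ V, S ∈ D ↔ ∀ g x, ρ g (S x) = S (ρ g x) := by
    intro S
    rw [Subalgebra.mem_centralizer_iff]
    constructor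
    · intro h g x
      exact LinearMap.congr_fun (h _ ⟨g, rfl⟩) x
    · rintro h _ ⟨g, rfl⟩
      ext x; exact h g x
  -- self-adjointness
  have hsa : ∀ S ∈ D, ∀ x y, B (S x) y = B x (S y) := by
    intro S hS
    rw [hD] at hS
    let C : LinearMap.BilinForm ℚ V := B.compLeft S - B.compRight S
    have hC : ∀ x y, C x y = B (S x) y - B x (S y) := fun x y => rfl
    obtain ⟨x0, hx0, h0⟩ := skew_degenerate hd C (fun x y => by
      rw [hC, hC, hB.symm (S y) x, hB.symm y (S x)]; ring)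
    rcases hi (LinearMap.ker C) (fun g w hw => by
      rw [LinearMap.mem_ker] at hw ⊢
      ext y
      have := LinearMap.congr_fun hw (ρ g⁻¹ y)
      rw [hC, ← hinv g, ← hinv g w, hS, hS, rho_inv_right] at this
      exact this) with h1 | h1
    · exfalso
      apply hx0
      have : x0 ∈ LinearMap.ker C := by
        rw [LinearMap.mem_ker]; ext y; exact h0 y
      rwa [h1] at this
    · intro x y
      have : x ∈ LinearMap.ker C := by rw [h1]; trivial
      have h2 := LinearMap.congr_fun (LinearMap.mem_ker.1 this) y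
      rw [hC] at h2
      exact sub_eq_zero.1 h2
  have hinjD : ∀ S ∈ D, S ≠ 0 → Function.Injective S := by
    intro S hS h0
    rw [hD] at hS
    rcases hi (LinearMap.ker S) (fun g w hw => by
      rw [LinearMap.mem_ker] at hw ⊢
      rw [← hS, hw, map_zero]) with h1 | h1
    · exact LinearMap.ker_eq_bot.1 h1
    · exact absurd (LinearMap.ker_eq_top.1 h1) h0
  have hunit : ∀ a : D, IsUnit a ∨ a = 0 := by
    intro a
    by_cases h0 : a = 0
    · exact Or.inr h0
    left
    have hinj := hinjD a.1 a.2 (fun h => h0 (Subtype.ext h))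
    let E := LinearEquiv.ofInjectiveEndo a.1 hinj
    have hE : ∀ x, E x = a.1 x := fun x => rfl
    have hmem : (E.symm : Module.End ℚ V) ∈ D := by
      rw [hD]
      intro g x
      apply E.injective
      have := (hD a.1).1 a.2 g (E.symm x)
      rw [← hE, ← hE] at this
      simpa using this.symm
    refine ⟨⟨a, ⟨_, hmem⟩, Subtype.ext ?_, Subtype.ext ?_⟩, rfl⟩
    · ext x
      exact E.apply_symm_apply x
    · ext x
      exact E.symm_apply_apply x
  have hntD : Nontrivial D := inferInstance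
  let _ : DivisionRing D := DivisionRing.ofIsUnitOrEqZero hunit
  have hmul := Module.finrank_mul_finrank ℚ D V
  rw [hd] at hmul
  have hp : Nat.Prime 23 := by norm_num
  have hTD : T ∈ D := (hD T).2 fun g x => LinearMap.congr_fun (hT g) x
  rcases (Nat.dvd_prime hp).1 (Dvd.intro _ hmul) with h1 | h1
  · obtain ⟨c, hc⟩ := (finrank_eq_one_iff_of_nonzero' (1 : D) one_ne_zero).1 h1 ⟨T, hTD⟩
    exact ⟨c, (congrArg Subtype.val hc).symm⟩
  · exfalso
    rw [h1] at hmul
    have h2 : finrank D V = 1 := by omega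
    obtain ⟨v, hv⟩ := exists_ne (0 : V)
    have h3 := (finrank_eq_one_iff_of_nonzero' v hv).1 h2
    have hcomm : ∀ S ∈ D, ∀ R ∈ D, ∀ x, S (R x) = R (S x) := by
      intro S hS R hR x
      apply hB.ext
      intro y
      have := hsa (R * S) (mul_mem hR hS) x y
      simp only [Module.End.mul_apply] at this
      rw [this, hsa S hS, hsa R hR]
    refine hi.no_line hd hv fun g => ?_
    obtain ⟨S, hS⟩ := h3 (ρ g v)
    have hS' : S.1 v = ρ g v := hS
    have hg : ρ g = S.1 := by
      ext x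
      obtain ⟨R, hR⟩ := h3 x
      have hR' : R.1 v = x := hR
      rw [← hR', (hD R.1).1 R.2, ← hS', hcomm _ R.2 _ S.2]
    have hgD : ρ g ∈ D := hg ▸ S.2
    have hsq : ∀ x, ρ g (ρ g x) = x := fun x => hB.ext fun y => by rw [hsa _ hgD, hinv]
    by_cases h0 : ρ g - 1 = 0
    · exact ⟨1, by simpa [sub_eq_zero] using LinearMap.congr_fun h0 v⟩
    · refine ⟨-1, ?_⟩
      have := hinjD _ (sub_mem hgD (one_mem D)) h0 (a₁ := ρ g v + v) (a₂ := 0) (by simp [hsq, add_comm])
      rw [neg_smul, one_smul]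
      exact eq_neg_of_add_eq_zero_left this

/-- The standing hypotheses. -/
structure Ctx [Fintype G] (ρ : G →* Module.End ℚ V) (B : LinearMap.BilinForm ℚ V) : Prop where
  dim : finrank ℚ V = 23
  pd : PD B
  inv : ∀ g x y, B (ρ g x) (ρ g y) = B x y
  inj : Function.Injective ρ
  irr : Irr ρ
  idx : ∀ H : Subgroup G, H.index ≠ 23 ∧ H.index ≠ 24

theorem exists_ctx [Fintype G] {ρ : G →* Module.End ℚ V} (hd : finrank ℚ V = 23)
    (hinj : Function.Injective ρ) (hi : Irr ρ)
    (hidx : ∀ H : Subgroup G, H.index ≠ 23 ∧ H.index ≠ 24) : ∃ B, Ctx ρ B := by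
  have hfd : FiniteDimensional ℚ V := Module.finite_of_finrank_pos (by rw [hd]; norm_num)
  let e := Module.finBasisOfFinrankEq ℚ V hd
  let B1 : LinearMap.BilinForm ℚ V := ∑ i, LinearMap.BilinForm.linMulLin (e.coord i) (e.coord i)
  have hB1 : ∀ x y, B1 x y = ∑ i, e.repr x i * e.repr y i := fun x y => by
    simp [B1, LinearMap.sum_apply]
  let B : LinearMap.BilinForm ℚ V := ∑ g, B1.comp (ρ g) (ρ g)
  have hB : ∀ x y, B x y = ∑ g, B1 (ρ g x) (ρ g y) := fun x y => by
    simp [B, LinearMap.sum_apply]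
  have hnn : ∀ x, 0 ≤ B1 x x := fun x => by
    rw [hB1]; exact sum_nonneg fun i _ => mul_self_nonneg _
  refine ⟨B, hd, ⟨fun x y => ?_, fun x hx => ?_⟩, fun g x y => ?_, hinj, hi, hidx⟩
  · simp only [hB, hB1, mul_comm]
  · rw [hB]
    refine sum_pos' (fun g _ => hnn _) ⟨1, mem_univ _, ?_⟩
    rw [map_one, Module.End.one_apply, hB1]
    obtain ⟨i, hi⟩ : ∃ i, e.repr x i ≠ 0 := by
      by_contra h
      push Not at h
      exact hx (e.repr.injective (by ext i; simp [h i]))
    exact sum_pos' (fun i _ => mul_self_nonneg _) ⟨i, mem_univ _, mul_self_pos.2 hi⟩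
  · rw [hB, hB]
    simp only [← rho_mul]
    exact Fintype.sum_equiv (Equiv.mulRight g) _ _ fun _ => rfl

namespace Ctx

variable [Fintype G] {ρ : G →* Module.End ℚ V} {B : LinearMap.BilinForm ℚ V}

theorem fd (h : Ctx ρ B) : FiniteDimensional ℚ V :=
  Module.finite_of_finrank_pos (by rw [h.dim]; norm_num)

theorem smul (h : Ctx ρ B) {c : ℚ} (hc : 0 < c) : Ctx ρ (c • B) :=
  ⟨h.dim, h.pd.smul hc, fun g x y => by simp [h.inv], h.inj, h.irr, h.idx⟩

theorem adj (h : Ctx ρ B) (g : G) (x y : V) : B (ρ g x) y = B x (ρ g⁻¹ y) := by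
  rw [← h.inv g x, rho_inv_right]

theorem dual_inv (h : Ctx ρ B) {L : Submodule ℤ V} (hL : ∀ g, ∀ x ∈ L, ρ g x ∈ L) (g : G)
    (x : V) (hx : x ∈ dual B L) : ρ g x ∈ dual B L := fun y hy => by
  rw [h.adj]; exact hx _ (hL _ _ hy)

/-- The orthogonality relation. -/
theorem orth (h : Ctx ρ B) (x y z : V) :
    ∑ g, B (ρ g x) z • ρ g y = ((Fintype.card G : ℚ) * B x y / 23) • z := by
  have := h.fd
  let T : Module.End ℚ V := ∑ g, (B (ρ g x)).smulRight (ρ g y)
  have hT : ∀ z, T z = ∑ g, B (ρ g x) z • ρ g y := fun z => by simp [T, LinearMap.sum_apply]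
  obtain ⟨c, hc⟩ := schur h.irr h.dim h.pd h.inv T (fun k => by
    ext w
    simp only [Module.End.mul_apply, hT, map_sum, map_smul]
    refine Fintype.sum_equiv (Equiv.mulLeft k) _ _ fun g => ?_
    simp only [Equiv.coe_mulLeft, rho_mul, h.inv])
  have h1 : LinearMap.trace ℚ V T = Fintype.card G * B x y := by
    simp only [T, map_sum, LinearMap.trace_smulRight, h.inv]
    simp
  rw [hc, map_smul, LinearMap.trace_one, h.dim] at h1
  rw [← hT, hc, ← h1]
  simp

theorem card_pos : (0 : ℚ) < Fintype.card G := by exact_mod_cast Fintype.card_pos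

theorem exists_ip (h : Ctx ρ B) {x z : V} (hx : x ≠ 0) (hz : z ≠ 0) : ∃ g, B (ρ g x) z ≠ 0 := by
  by_contra hne
  push Not at hne
  have := h.orth x x z
  simp only [hne, zero_smul, sum_const_zero] at this
  rcases smul_eq_zero.1 this.symm with h1 | h1
  · have := h.pd.pos x hx
    have h2 : (0 : ℚ) < (Fintype.card G : ℚ) * B x x / 23 := by
      have := card_pos (G := G); positivity
    exact h2.ne' h1
  · exact hz h1

theorem design (h : Ctx ρ B) (u : V) :
    ∑ g, (B (ρ g u) u) ^ 2 = (Fintype.card G : ℚ) * (B u u) ^ 2 / 23 := by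
  have := congrArg (fun w => B w u) (h.orth u u u)
  simp only [map_sum, map_smul, LinearMap.sum_apply, LinearMap.smul_apply, smul_eq_mul] at this
  simp only [sq, this]
  ring

theorem orth_mem (h : Ctx ρ B) {L : Submodule ℤ V} (hL : ∀ g, ∀ x ∈ L, ρ g x ∈ L) {x y z : V}
    (hy : y ∈ L) (hxz : ∀ g, B (ρ g x) z ∈ Z) : ((Fintype.card G : ℚ) * B x y / 23) • z ∈ L := by
  rw [← h.orth]
  refine sum_mem fun g _ => ?_
  obtain ⟨n, hn⟩ := memZ.1 (hxz g)
  rw [← hn, Int.cast_smul_eq_zsmul]
  exact L.smul_mem _ (hL _ _ hy)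

theorem exists_lat (h : Ctx ρ B) : ∃ L : Submodule ℤ V, Lat L ∧ ∀ g, ∀ x ∈ L, ρ g x ∈ L := by
  have := h.fd
  let e := Module.finBasisOfFinrankEq ℚ V h.dim
  let s : G × Fin 23 → V := fun p => ρ p.1 (e p.2)
  refine ⟨Submodule.span ℤ (Set.range s), ?_, fun g x hx => ?_⟩
  · have := lat_span e
    refine Submodule.IsLattice.of_le_of_isLattice_of_fg ℚ
      (M := Submodule.span ℤ (Set.range e)) (Submodule.span_mono ?_)
      (Submodule.fg_span (Set.finite_range _))
    rintro _ ⟨i, rfl⟩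
    exact ⟨(1, i), by simp [s]⟩
  · induction hx using Submodule.span_induction with
    | mem y hy =>
      obtain ⟨p, rfl⟩ := hy
      exact Submodule.subset_span ⟨(g * p.1, p.2), by simp [s]⟩
    | zero => simp
    | add a b _ _ ha hb => rw [map_add]; exact add_mem ha hb
    | smul a b _ hb => rw [map_zsmul]; exact Submodule.smul_mem _ _ hb

theorem dvd_card (h : Ctx ρ B) : 23 ∣ Fintype.card G := by
  classical
  have := h.fd
  obtain ⟨L, hL, hinv⟩ := h.exists_lat
  obtain ⟨b, hb⟩ := hL.exists_basis h.dim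
  have hnd := h.pd.nondeg
  have hm : b 0 ∈ L := hb ▸ Submodule.subset_span ⟨0, rfl⟩
  have hx : B.dualBasis hnd b 0 ∈ dual B L := by
    rw [hb, dual_eq, LinearMap.BilinForm.dualSubmodule_span_of_basis B hnd]
    exact Submodule.subset_span ⟨0, rfl⟩
  have h1 : B (B.dualBasis hnd b 0) (b 0) = 1 := by
    rw [LinearMap.BilinForm.apply_dualBasis_left]; simp
  have h2 := h.orth_mem hinv hm (x := B.dualBasis hnd b 0) (z := b 0)
    fun g => h.dual_inv hinv g _ hx _ hm
  have h3 := hx _ h2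
  rw [map_smul, h1] at h3
  obtain ⟨n, hn⟩ := memZ.1 h3
  have h4 : (Fintype.card G : ℤ) = 23 * n := by
    have : (Fintype.card G : ℚ) = 23 * n := by rw [hn]; simp; ring
    exact_mod_cast this
  exact Int.natCast_dvd_natCast.1 ⟨n, by simpa using h4⟩

end Ctx

end Cfsg.Agent.F23
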