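import Mathlib
import Cfsg.Agent.F23.Rep

/-! Elements of order 23 and the order of the group. -/

set_option autoImplicit false

namespace Cfsg.Agent.F23

open Module Finset Polynomial

variable {G : Type*} [Group G] {V : Type*} [AddCommGroup V] [Module ℚ V]

theorem irr_dvd_charpoly [FiniteDimensional ℚ V] (T : Module.End ℚ V) {f q : ℚ[X]}
    (hf : Irreducible f) (h1 : aeval T (f * q) = 0) (h2 : aeval T q ≠ 0) : f ∣ T.charpoly := by
  by_contra hn
  have h3 : ¬ f ∣ minpoly ℚ T := fun h => hn (h.trans (LinearMap.minpoly_dvd_charpoly T))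
  have h4 : IsCoprime (minpoly ℚ T) f := ((hf.coprime_iff_not_dvd).2 h3).symm
  obtain ⟨r, hr⟩ := h4.dvd_of_dvd_mul_left (minpoly.dvd ℚ T h1)
  apply h2
  rw [hr, map_mul, minpoly.aeval, zero_mul]

theorem totient_le [FiniteDimensional ℚ V] (T : Module.End ℚ V) {p k : ℕ} (hp : p.Prime)
    (h1 : T ^ p ^ (k + 1) = 1) (h2 : T ^ p ^ k ≠ 1) :
    cyclotomic (p ^ (k + 1)) ℚ ∣ T.charpoly := by
  have : Fact p.Prime := ⟨hp⟩
  refine irr_dvd_charpoly T (q := X ^ p ^ k - 1)
    (cyclotomic.irreducible_rat (pow_pos hp.pos _)) ?_ ?_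
  · rw [cyclotomic_prime_pow_mul_X_pow_sub_one]; simp [h1]
  · simpa [sub_eq_zero] using h2

theorem totient_le' [FiniteDimensional ℚ V] (T : Module.End ℚ V) {p k : ℕ} (hp : p.Prime)
    (h1 : T ^ p ^ (k + 1) = 1) (h2 : T ^ p ^ k ≠ 1) : p ^ k * (p - 1) ≤ finrank ℚ V := by
  have := natDegree_le_of_dvd (totient_le T hp h1 h2) T.charpoly_monic.ne_zero
  rwa [natDegree_cyclotomic, LinearMap.charpoly_natDegree, Nat.totient_prime_pow_succ hp] at this

theorem trace_zero (hd : finrank ℚ V = 23) (T : Module.End ℚ V) (h1 : T ^ 23 = 1) (h2 : T ≠ 1) :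
    LinearMap.trace ℚ V T = 0 := by
  have hfd : FiniteDimensional ℚ V := Module.finite_of_finrank_pos (by rw [hd]; norm_num)
  have hp : Nat.Prime 23 := by norm_num
  have : Fact (Nat.Prime 23) := ⟨hp⟩
  obtain ⟨r, hr⟩ := totient_le T (k := 0) hp (by simpa using h1) (by simpa using h2)
  simp only [zero_add, pow_one] at hr
  have hm : r.Monic := (cyclotomic.monic 23 ℚ).of_mul_monic_left (hr ▸ T.charpoly_monic)
  have hdeg : r.natDegree = 1 := by
    have := congrArg natDegree hr
    rw [(cyclotomic.monic 23 ℚ).natDegree_mul hm, natDegree_cyclotomic,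
      LinearMap.charpoly_natDegree, hd, Nat.totient_prime hp] at this
    omega
  have hr1 : r = X + C (r.coeff 0) := hm.eq_X_add_C hdeg
  set a := r.coeff 0
  have hroot : T.charpoly.IsRoot (-a) := by
    rw [hr, hr1]; simp
  obtain ⟨v, hv⟩ := ((Module.End.hasEigenvalue_iff_isRoot_charpoly T _).2 hroot).exists_hasEigenvector
  have h3 := hv.pow_apply 23
  rw [h1, Module.End.one_apply] at h3
  have h4 : (-a) ^ 23 = 1 := by
    have : ((-a) ^ 23 - 1) • v = 0 := by rw [sub_smul, ← h3]; simp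
    exact sub_eq_zero.1 ((smul_eq_zero.1 this).resolve_right hv.2)
  have h5 : -a = 1 := by
    rcases (pow_eq_one_iff_of_ne_zero (by norm_num)).1 h4 with h | h
    · exact h
    · exact absurd h.2 (by decide)
  have h6 : T.charpoly = X ^ 23 - 1 := by
    rw [hr, hr1, ← cyclotomic_prime_mul_X_sub_one ℚ 23, show a = -1 by linarith]
    simp [sub_eq_add_neg]
  let e := Module.finBasisOfFinrankEq ℚ V hd
  rw [LinearMap.trace_eq_matrix_trace ℚ e, Matrix.trace_eq_neg_charpoly_coeff,
    LinearMap.charpoly_toMatrix, h6]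
  simp [coeff_X_pow, coeff_one]

/-- The trace of the sum over a subgroup. -/
theorem trace_sum [FiniteDimensional ℚ V] {P : Type*} [Group P] [Fintype P]
    (ρ : P →* Module.End ℚ V) : LinearMap.trace ℚ V (∑ g, ρ g) =
      (Fintype.card P : ℚ) * finrank ℚ (LinearMap.range (∑ g, ρ g)) := by
  have hc : (Fintype.card P : ℚ) ≠ 0 := by exact_mod_cast Fintype.card_ne_zero
  set S := ∑ g, ρ g with hS
  have h1 : S * S = (Fintype.card P : ℚ) • S := by
    have : ∀ g, ρ g * S = S := fun g => by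
      rw [hS, Finset.mul_sum]
      simp only [← map_mul]
      exact Fintype.sum_equiv (Equiv.mulLeft g) _ _ fun _ => rfl
    conv_lhs => rw [hS, Finset.sum_mul]
    simp only [← hS, this]
    simp [Nat.cast_smul_eq_nsmul]
  have h2 : IsIdempotentElem ((Fintype.card P : ℚ)⁻¹ • S) := by
    unfold IsIdempotentElem
    rw [smul_mul_smul_comm, h1, smul_smul, mul_assoc, inv_mul_cancel₀ hc, mul_one]
  have h3 := (LinearMap.IsIdempotentElem.isProj_range _ h2).trace
  rw [LinearMap.range_smul _ _ (inv_ne_zero hc), map_smul, smul_eq_mul] at h3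
  rw [← h3, ← mul_assoc, mul_inv_cancel₀ hc, one_mul]

namespace Ctx

variable [Fintype G] {ρ : G →* Module.End ℚ V} {B : LinearMap.BilinForm ℚ V}

theorem prime_le (h : Ctx ρ B) {p : ℕ} (hp : p.Prime) (hd : p ∣ Fintype.card G) : p ≤ 23 := by
  have := h.fd
  have : Fact p.Prime := ⟨hp⟩
  obtain ⟨g, hg⟩ := exists_prime_orderOf_dvd_card p hd
  have h1 := totient_le' (ρ g) (k := 0) hp
    (by rw [zero_add, pow_one, ← map_pow, ← hg, pow_orderOf_eq_one, map_one])
    (by
      rw [pow_zero, pow_one, ← map_one ρ]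
      intro h0
      rw [h.inj h0, orderOf_one] at hg
      exact hp.one_lt.ne hg)
  rw [h.dim, pow_zero, one_mul] at h1
  have h2 : p ≠ 24 := by rintro rfl; norm_num at hp
  omega

theorem trace_sum_eq (h : Ctx ρ B) {P : Type*} [Group P] [Fintype P] (f : P →* G)
    (hf : Function.Injective f) (h23 : ∀ g : P, g ^ 23 = 1) :
    LinearMap.trace ℚ V (∑ g, (ρ.comp f) g) = 23 := by
  classical
  have := h.fd
  rw [map_sum, Finset.sum_eq_single 1]
  · simp [h.dim]
  · intro g _ hg
    apply trace_zero h.dim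
    · rw [← map_pow, h23, map_one]
    · intro h0
      apply hg
      apply hf
      apply h.inj
      rw [map_one, map_one]; exact h0
  · simp

theorem not_dvd (h : Ctx ρ B) : ¬ 23 ^ 2 ∣ Fintype.card G := by
  classical
  intro hd
  have := h.fd
  have hp : Nat.Prime 23 := by norm_num
  have : Fact (Nat.Prime 23) := ⟨hp⟩
  obtain ⟨P, hP⟩ := Sylow.exists_subgroup_card_pow_prime (G := G) 23 (n := 2)
    (by rwa [Nat.card_eq_fintype_card])
  have h23 : ∀ g : P, g ^ 23 = 1 := by
    intro g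
    by_contra hne
    have h1 := totient_le' (ρ g) (k := 1) hp
      (by
        rw [← map_pow, ← map_one ρ]
        congr 1
        have : g ^ 23 ^ 2 = 1 := by rw [← hP, pow_card_eq_one']
        exact congrArg Subtype.val this)
      (by
        rw [pow_one, ← map_pow, ← map_one ρ]
        intro h0
        exact hne (Subtype.ext (h.inj h0)))
    rw [h.dim] at h1
    norm_num at h1
  have h1 := h.trace_sum_eq P.subtype P.subtype_injective h23
  rw [trace_sum, ← Nat.card_eq_fintype_card, hP] at h1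
  have h2 : 23 ^ 2 * finrank ℚ (LinearMap.range (∑ g, (ρ.comp P.subtype) g)) = 23 := by
    exact_mod_cast h1
  omega

end Ctx

/-- A cyclic subgroup of order 23, parametrised. -/
structure Cyc (a : ZMod 23 → G) : Prop where
  add : ∀ i k, a (i + k) = a i * a k
  ne : ∀ i, i ≠ 0 → a i ≠ 1

instance fact23 : Fact (Nat.Prime 23) := ⟨by norm_num⟩

namespace Cyc

variable {a : ZMod 23 → G} {ρ : G →* Module.End ℚ V}

theorem zero (h : Cyc a) : a 0 = 1 := by
  have := h.add 0 0
  rw [add_zero] at this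
  exact left_eq_mul.1 this

theorem neg (h : Cyc a) (i : ZMod 23) : a (-i) = (a i)⁻¹ := by
  rw [eq_inv_iff_mul_eq_one, ← h.add, neg_add_cancel, h.zero]

theorem mul (h : Cyc a) {j : ZMod 23} (hj : j ≠ 0) : Cyc fun k => a (j * k) :=
  ⟨fun i k => by rw [mul_add, h.add], fun i hi => h.ne _ (mul_ne_zero hj hi)⟩

theorem app (h : Cyc a) (ρ : G →* Module.End ℚ V) (i k : ZMod 23) (x : V) :
    ρ (a i) (ρ (a k) x) = ρ (a (i + k)) x := by rw [h.add, rho_mul]

theorem app0 (h : Cyc a) (ρ : G →* Module.End ℚ V) (x : V) : ρ (a 0) x = x := by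
  rw [h.zero]; simp

/-- Induction along a generator. -/
theorem ind {j : ZMod 23} (hj : j ≠ 0) {p : ZMod 23 → Prop} (h0 : p 0)
    (hs : ∀ i, p i → p (j + i)) (i : ZMod 23) : p i := by
  have : ∀ n : ℕ, p (n * j) := by
    intro n
    induction n with
    | zero => simpa using h0
    | succ n ih =>
      have := hs _ ih
      rwa [show j + n * j = ((n + 1 : ℕ) : ZMod 23) * j by push_cast; ring] at this
  have h1 := this (i / j).val
  rwa [ZMod.natCast_zmod_val, div_mul_cancel₀ _ hj] at h1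

theorem sub_mem (h : Cyc a) {L : Submodule ℤ V} (hL : ∀ i, ∀ x ∈ L, ρ (a i) x ∈ L) {j : ZMod 23}
    (hj : j ≠ 0) {x : V} (hx : ρ (a j) x - x ∈ L) (i : ZMod 23) : ρ (a i) x - x ∈ L := by
  refine ind hj (p := fun i => ρ (a i) x - x ∈ L) (by simp [h.app0]) (fun i hi => ?_) i
  have : ρ (a (j + i)) x - x = ρ (a j) (ρ (a i) x - x) + (ρ (a j) x - x) := by
    rw [map_sub, h.app]; abel
  rw [this]
  exact add_mem (hL _ _ hi) hx

theorem fix_all (h : Cyc a) {j : ZMod 23} (hj : j ≠ 0) {x : V} (hx : ρ (a j) x = x)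
    (i : ZMod 23) : ρ (a i) x = x := by
  have := h.sub_mem (ρ := ρ) (L := ⊥) (fun i x hx => by
    rw [Submodule.mem_bot] at hx ⊢; rw [hx, map_zero]) hj (x := x) (by simp [hx]) i
  exact sub_eq_zero.1 this

end Cyc

/-- The norm operator. -/
noncomputable def Nm (ρ : G →* Module.End ℚ V) (a : ZMod 23 → G) : Module.End ℚ V := ∑ i, ρ (a i)

theorem Nm_apply (ρ : G →* Module.End ℚ V) (a : ZMod 23 → G) (x : V) :
    Nm ρ a x = ∑ i, ρ (a i) x := by simp [Nm, LinearMap.sum_apply]

namespace Cyc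

variable {a : ZMod 23 → G} {ρ : G →* Module.End ℚ V}

theorem a_Nm (h : Cyc a) (i : ZMod 23) (x : V) : ρ (a i) (Nm ρ a x) = Nm ρ a x := by
  rw [Nm_apply, map_sum]
  simp only [h.app]
  exact Fintype.sum_equiv (Equiv.addLeft i) _ _ fun _ => rfl

theorem Nm_a (h : Cyc a) (i : ZMod 23) (x : V) : Nm ρ a (ρ (a i) x) = Nm ρ a x := by
  rw [Nm_apply, Nm_apply]
  simp only [h.app]
  exact Fintype.sum_equiv (Equiv.addRight i) _ _ fun _ => rfl

theorem Nm_mem {L : Submodule ℤ V} (hL : ∀ i, ∀ x ∈ L, ρ (a i) x ∈ L) {x : V} (hx : x ∈ L) :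
    Nm ρ a x ∈ L := by
  rw [Nm_apply]; exact sum_mem fun i _ => hL i x hx

theorem Nm_sub {L : Submodule ℤ V} {x : V} (hx : ∀ i, ρ (a i) x - x ∈ L) :
    Nm ρ a x - (23 : ℤ) • x ∈ L := by
  have : Nm ρ a x - (23 : ℤ) • x = ∑ i, (ρ (a i) x - x) := by
    rw [Nm_apply, sum_sub_distrib, sum_const, card_univ, ZMod.card]
    norm_cast
  rw [this]
  exact sum_mem fun i _ => hx i

theorem Nm_fix {x : V} (hx : ∀ i, ρ (a i) x = x) : Nm ρ a x = (23 : ℚ) • x := by
  rw [Nm_apply]
  simp only [hx, sum_const, card_univ, ZMod.card]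
  rw [← Nat.cast_smul_eq_nsmul ℚ]; norm_num

/-- If `(σ - 1) y ∈ L` and `N y = 0` then `23 y ∈ L`. -/
theorem smul23_mem (h : Cyc a) {L : Submodule ℤ V} (hL : ∀ i, ∀ x ∈ L, ρ (a i) x ∈ L) {y : V}
    (h1 : ρ (a 1) y - y ∈ L) (h2 : Nm ρ a y ∈ L) : (23 : ℤ) • y ∈ L := by
  have := Nm_sub (h.sub_mem hL one_ne_zero h1)
  have h3 := Submodule.sub_mem _ h2 this
  rwa [sub_sub_cancel] at h3

theorem Nm_diff (h : Cyc a) (i : ZMod 23) (z : V) : Nm ρ a (ρ (a i) z - z) = 0 := by
  rw [map_sub, h.Nm_a, sub_self]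

end Cyc

namespace Ctx

variable [Fintype G] {ρ : G →* Module.End ℚ V} {B : LinearMap.BilinForm ℚ V}

theorem exists_cyc (h : Ctx ρ B) : ∃ a : ZMod 23 → G, Cyc a := by
  obtain ⟨g, hg⟩ := exists_prime_orderOf_dvd_card 23 h.dvd_card
  refine ⟨fun i => g ^ i.val, fun i k => ?_, fun i hi h0 => hi ?_⟩
  · have := pow_mod_orderOf g (i.val + k.val)
    rw [hg] at this
    rw [← pow_add, ZMod.val_add, this]
  · have h1 := orderOf_dvd_of_pow_eq_one h0
    rw [hg] at h1
    rw [← ZMod.val_eq_zero]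
    exact Nat.eq_zero_of_dvd_of_lt h1 (ZMod.val_lt i)

/-- The fixed space of an element of order 23 is a line. -/
theorem fix_line (h : Ctx ρ B) {a : ZMod 23 → G} (ha : Cyc a) :
    ∃ w : V, w ≠ 0 ∧ (∀ i, ρ (a i) w = w) ∧ ∀ x, (∀ i, ρ (a i) x = x) → ∃ c : ℚ, x = c • w := by
  classical
  have := h.fd
  let f : Multiplicative (ZMod 23) →* G := MonoidHom.mk' (fun i => a i.toAdd) fun i k => ha.add _ _
  have hf : Function.Injective f := (injective_iff_map_eq_one f).2 fun i hi => by
    by_contra h0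
    exact ha.ne i.toAdd h0 hi
  have h1 := h.trace_sum_eq f hf (fun g => by
    have := pow_card_eq_one (x := g)
    simpa using this)
  have h2 : ∑ g, (ρ.comp f) g = Nm ρ a := rfl
  rw [trace_sum, h2] at h1
  have h3 : finrank ℚ (LinearMap.range (Nm ρ a)) = 1 := by
    simp only [Fintype.card_multiplicative, ZMod.card] at h1
    have : 23 * finrank ℚ (LinearMap.range (Nm ρ a)) = 23 := by exact_mod_cast h1
    omega
  obtain ⟨⟨w, y, hy⟩, hw0, hw⟩ := finrank_eq_one_iff'.1 h3
  refine ⟨w, fun h0 => hw0 (Subtype.ext h0), fun i => by rw [← hy, ha.a_Nm], fun x hx => ?_⟩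
  obtain ⟨c, hc⟩ := hw ⟨x, (23 : ℚ)⁻¹ • x, by rw [map_smul, Cyc.Nm_fix hx, smul_smul]; simp⟩
  exact ⟨c, (congrArg Subtype.val hc).symm⟩

theorem adj_a (h : Ctx ρ B) {a : ZMod 23 → G} (ha : Cyc a) (i : ZMod 23) (x y : V) :
    B (ρ (a i) x) y = B x (ρ (a (-i)) y) := by rw [h.adj, ha.neg]

theorem adj_Nm (h : Ctx ρ B) {a : ZMod 23 → G} (ha : Cyc a) (x y : V) :
    B (Nm ρ a x) y = B x (Nm ρ a y) := by
  rw [Nm_apply, Nm_apply]
  simp only [map_sum, LinearMap.sum_apply, h.adj_a ha]
  exact Fintype.sum_equiv (Equiv.neg _) _ _ fun _ => rfl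

/-- A finite set of at most 24 lines permuted transitively and not fixed by the element of order 23
gives a subgroup of index 23 or 24. -/
theorem gset (h : Ctx ρ B) {a : ZMod 23 → G} (ha : Cyc a) {z : V} (hz : ρ (a 1) z ≠ z)
    (S : Finset V) (hS : S.card ≤ 24) (hm : ∀ g, ρ g z ∈ S ∨ -ρ g z ∈ S) : False := by
  classical
  let H : Subgroup G :=
    { carrier := {g | ρ g z = z ∨ ρ g z = -z}
      one_mem' := Or.inl (by simp)
      mul_mem' := by
        rintro g k (hg | hg) (hk | hk) <;> simp [hg, hk]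
      inv_mem' := by
        rintro g (hg | hg)
        · left
          conv_lhs => rw [← hg]
          exact rho_inv_left ρ g z
        · right
          have := rho_inv_left ρ g z
          rw [hg, map_neg] at this
          exact (neg_eq_iff_eq_neg.1 this) }
  have hH : ∀ g k : G, (ρ g z = ρ k z ∨ ρ g z = -ρ k z) ↔ (g : G ⧸ H) = k := by
    intro g k
    rw [eq_comm (a := (g : G ⧸ H)), QuotientGroup.eq]
    show _ ↔ (ρ (k⁻¹ * g) z = z ∨ ρ (k⁻¹ * g) z = -z)
    rw [rho_mul]
    constructor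
    · rintro (h1 | h1) <;> simp [h1, rho_inv_left]
    · rintro (h1 | h1)
      · left; rw [← rho_inv_right ρ k (ρ g z), h1]
      · right; rw [← rho_inv_right ρ k (ρ g z), h1, map_neg]
  have hup : H.index ≤ 24 := by
    have hk : ∀ c : G ⧸ H, ∃ s : S, s.1 = ρ c.out z ∨ s.1 = -ρ c.out z := by
      intro c
      rcases hm c.out with h1 | h1
      · exact ⟨⟨_, h1⟩, Or.inl rfl⟩
      · exact ⟨⟨_, h1⟩, Or.inr rfl⟩
    choose k hk using hk
    have hinj : Function.Injective k := by
      intro c d hcd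
      rw [← c.out_eq, ← d.out_eq, ← hH]
      have h1 := hk c
      have h2 := hk d
      rw [hcd] at h1
      rcases h1 with h1 | h1 <;> rcases h2 with h2 | h2
      · left; rw [← h1, h2]
      · right; rw [← h1, h2]
      · right; rw [← h2, h1, neg_neg]
      · left; exact neg_injective (h1.symm.trans h2)
    have := Nat.card_le_card_of_injective k hinj
    rw [Nat.card_eq_fintype_card (α := S), Fintype.card_coe] at this
    exact this.trans hS
  have hlo : 23 ≤ H.index := by
    have hinj : Function.Injective fun i : ZMod 23 => (a i : G ⧸ H) := by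
      intro i k hik
      by_contra hne
      apply hz
      have h1 : (k - i) ≠ 0 := sub_ne_zero.2 (Ne.symm hne)
      have h2 : (a i)⁻¹ * a k ∈ H := QuotientGroup.eq.1 hik
      rw [← ha.neg, ← ha.add, neg_add_eq_sub] at h2
      have h3 : ρ (a (k - i + (k - i))) z = z := by
        rw [← ha.app]
        rcases h2 with h2 | h2
        · rw [h2, h2]
        · rw [h2, map_neg, h2, neg_neg]
      refine ha.fix_all ?_ h3 1
      rw [← two_mul]
      exact mul_ne_zero (by decide) h1
    have := Nat.card_le_card_of_injective _ hinj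
    rwa [Nat.card_zmod] at this
  have := h.idx H
  omega

end Ctx

end Cfsg.Agent.F23
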