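import Mathlib
import Cfsg.Agent.F23.Sig

/-! Integral operators in the group ring of the element of order 23, and index counts. -/

set_option autoImplicit false

namespace Cfsg.Agent.F23

open Module Finset

variable {G : Type*} [Group G] {V : Type*} [AddCommGroup V] [Module ℚ V]

/-- An integral combination of the powers of the element of order 23. -/
noncomputable def op (ρ : G →* Module.End ℚ V) (a : ZMod 23 → G) (c : ZMod 23 → ℤ) :
    Module.End ℚ V := ∑ i, (c i : ℚ) • ρ (a i)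

theorem op_apply (ρ : G →* Module.End ℚ V) (a : ZMod 23 → G) (c : ZMod 23 → ℤ) (x : V) :
    op ρ a c x = ∑ i, (c i : ℚ) • ρ (a i) x := by simp [op, LinearMap.sum_apply]

/-- Convolution. -/
def conv (c d : ZMod 23 → ℤ) (k : ZMod 23) : ℤ := ∑ i, c i * d (k - i)

/-- The unit vector at `j`. -/
def dl (j : ZMod 23) (i : ZMod 23) : ℤ := if i = j then 1 else 0

theorem op_dl (ρ : G →* Module.End ℚ V) (a : ZMod 23 → G) (j : ZMod 23) (x : V) :
    op ρ a (dl j) x = ρ (a j) x := by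
  rw [op_apply, Finset.sum_eq_single j] <;> simp +contextual [dl]

theorem op_lin (ρ : G →* Module.End ℚ V) (a : ZMod 23 → G) (c d : ZMod 23 → ℤ) (p q r : ℤ)
    (x : V) : op ρ a (fun i => p + q * c i + r * d i) x =
      (p : ℚ) • Nm ρ a x + (q : ℚ) • op ρ a c x + (r : ℚ) • op ρ a d x := by
  simp only [op_apply, Nm_apply, Finset.smul_sum, ← sum_add_distrib, smul_smul, ← add_smul]
  refine sum_congr rfl fun i _ => ?_
  push_cast; rfl

theorem op_mem {ρ : G →* Module.End ℚ V} {a : ZMod 23 → G} {L : Submodule ℤ V}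
    (hL : ∀ i, ∀ x ∈ L, ρ (a i) x ∈ L) (c : ZMod 23 → ℤ) {x : V} (hx : x ∈ L) :
    op ρ a c x ∈ L := by
  rw [op_apply]
  refine sum_mem fun i _ => ?_
  rw [Int.cast_smul_eq_zsmul]
  exact L.smul_mem _ (hL i x hx)

namespace Cyc

variable {a : ZMod 23 → G} {ρ : G →* Module.End ℚ V}

theorem op_op (h : Cyc a) (c d : ZMod 23 → ℤ) (x : V) :
    op ρ a c (op ρ a d x) = op ρ a (conv c d) x := by
  rw [op_apply ρ a c, op_apply ρ a (conv c d)]
  simp only [op_apply, map_sum, map_smul, h.app, conv, Finset.smul_sum, smul_smul]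
  push_cast
  simp only [Finset.sum_smul]
  conv_rhs => rw [Finset.sum_comm]
  refine sum_congr rfl fun i _ => ?_
  refine Fintype.sum_equiv (Equiv.addLeft i) _ _ fun k => ?_
  simp

theorem a_op (h : Cyc a) (i : ZMod 23) (c : ZMod 23 → ℤ) (x : V) :
    ρ (a i) (op ρ a c x) = op ρ a c (ρ (a i) x) := by
  simp only [op_apply, map_sum, map_smul, h.app, add_comm]

theorem Nm_op (h : Cyc a) (c : ZMod 23 → ℤ) (x : V) :
    Nm ρ a (op ρ a c x) = ((∑ i, c i : ℤ) : ℚ) • Nm ρ a x := by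
  simp only [op_apply, map_sum, map_smul, h.Nm_a]
  push_cast
  rw [Finset.sum_smul]

theorem op_Nm (h : Cyc a) (c : ZMod 23 → ℤ) (x : V) :
    op ρ a c (Nm ρ a x) = ((∑ i, c i : ℤ) : ℚ) • Nm ρ a x := by
  simp only [op_apply, h.a_Nm]
  push_cast
  rw [Finset.sum_smul]

end Cyc

theorem Ctx.adj_op [Fintype G] {ρ : G →* Module.End ℚ V} {B : LinearMap.BilinForm ℚ V}
    (h : Ctx ρ B) {a : ZMod 23 → G} (ha : Cyc a) (c : ZMod 23 → ℤ) (x y : V) :
    B (op ρ a c x) y = B x (op ρ a (fun i => c (-i)) y) := by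
  simp only [op_apply, map_sum, map_smul, LinearMap.sum_apply, LinearMap.smul_apply, h.adj_a ha]
  refine Fintype.sum_equiv (Equiv.neg _) _ _ fun i => ?_
  simp

/-- The indicator of the quadratic residues. -/
def qr (i : ZMod 23) : ℤ := if i.val ∈ [1, 2, 3, 4, 6, 8, 9, 12, 13, 16, 18] then 1 else 0

theorem conv_qr : conv qr qr = fun i => 6 + (-1) * qr i + (-6) * dl 0 i := by
  funext i; revert i; decide +kernel

theorem neg_qr : (fun i => qr (-i)) = fun i => 1 + (-1) * qr i + (-1) * dl 0 i := by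
  funext i; revert i; decide +kernel

theorem sum_qr : ∑ i, qr i = 11 := by decide +kernel

theorem Cyc.qr_sq {a : ZMod 23 → G} {ρ : G →* Module.End ℚ V} (h : Cyc a) (x : V) :
    op ρ a qr (op ρ a qr x) = (6 : ℚ) • Nm ρ a x - op ρ a qr x - (6 : ℚ) • x := by
  rw [h.op_op, conv_qr, op_lin, op_dl, h.app0]
  push_cast
  module

theorem Ctx.adj_qr [Fintype G] {ρ : G →* Module.End ℚ V} {B : LinearMap.BilinForm ℚ V}
    (h : Ctx ρ B) {a : ZMod 23 → G} (ha : Cyc a) (x y : V) :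
    B (op ρ a qr x) y = B x (Nm ρ a y - op ρ a qr y - y) := by
  rw [h.adj_op ha, neg_qr, op_lin, op_dl, ha.app0]
  congr 1
  push_cast
  module

/-- The relative index of submodules. -/
noncomputable abbrev ind (L K : Submodule ℤ V) : ℕ := L.toAddSubgroup.relIndex K.toAddSubgroup

omit [Module ℚ V] in
theorem ind_eq (L K : Submodule ℤ V) : ind L K = Nat.card (K.map L.mkQ) := by
  have := AddSubgroup.relIndex_ker (K := K.toAddSubgroup) L.mkQ.toAddMonoidHom
  have h2 : L.mkQ.toAddMonoidHom.ker = L.toAddSubgroup := by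
    ext x; simp
  rw [h2] at this
  exact this

omit [Module ℚ V] in
theorem ind_pow {L K : Submodule ℤ V} (h0 : ind L K ≠ 0) {p : ℕ} (hp : p.Prime)
    (h : ∀ x ∈ K, (p : ℤ) • x ∈ L) : ∃ k, ind L K = p ^ k := by
  have : Fact p.Prime := ⟨hp⟩
  rw [ind_eq] at h0 ⊢
  have : Finite (K.map L.mkQ) := Nat.finite_of_card_ne_zero h0
  have h1 : IsPGroup p (Multiplicative (K.map L.mkQ)) := by
    intro g
    refine ⟨1, ?_⟩
    obtain ⟨_, x, hx, rfl⟩ := g
    rw [pow_one]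
    apply Subtype.ext
    show p • L.mkQ x = 0
    rw [← map_nsmul, Submodule.mkQ_apply, Submodule.Quotient.mk_eq_zero]
    simpa using h x hx
  exact (IsPGroup.iff_card (G := Multiplicative (K.map L.mkQ))).1 h1

theorem ind_mod {a : ZMod 23 → G} {ρ : G →* Module.End ℚ V} (ha : Cyc a) {L K : Submodule ℤ V}
    (h0 : ind L K ≠ 0) (hL : ∀ i, ∀ x ∈ L, ρ (a i) x ∈ L) (hK : ∀ i, ∀ x ∈ K, ρ (a i) x ∈ K)
    (hf : ∀ x ∈ K, ρ (a 1) x - x ∈ L → x ∈ L) : ind L K ≡ 1 [MOD 23] := by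
  classical
  rw [ind_eq] at h0 ⊢
  have : Finite (K.map L.mkQ) := Nat.finite_of_card_ne_zero h0
  have := Fintype.ofFinite (K.map L.mkQ)
  let s : ZMod 23 → (V ⧸ L) →ₗ[ℤ] (V ⧸ L) := fun i =>
    L.mapQ L ((ρ (a i)).restrictScalars ℤ) fun x hx => hL i x hx
  have hs : ∀ i x, s i (L.mkQ x) = L.mkQ (ρ (a i) x) := fun i x => rfl
  let f : ZMod 23 → Function.End (K.map L.mkQ) := fun i y => ⟨s i y.1, by
    obtain ⟨_, x, hx, rfl⟩ := y
    exact ⟨_, hK i x hx, rfl⟩⟩
  have hf1 : ∀ n : ℕ, f 1 ^ n = f n := by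
    intro n
    induction n with
    | zero =>
      funext ⟨_, x, hx, rfl⟩
      apply Subtype.ext
      show L.mkQ x = s ((0 : ℕ) : ZMod 23) (L.mkQ x)
      rw [hs, Nat.cast_zero, ha.app0]
    | succ n ih =>
      rw [pow_succ, ih]
      funext ⟨_, x, hx, rfl⟩
      apply Subtype.ext
      show s n (s 1 (L.mkQ x)) = s ((n + 1 : ℕ) : ZMod 23) (L.mkQ x)
      rw [hs, hs, hs, ha.app, Nat.cast_succ]
  have h23 : f 1 ^ 23 ^ 1 = 1 := by
    rw [hf1, ← pow_zero (f 1), hf1]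
    congr 1
  have h1 := Equiv.Perm.card_fixedPoints_modEq h23
  have h2 : Fintype.card (f 1).fixedPoints = 1 := by
    rw [Fintype.card_eq_one_iff]
    refine ⟨⟨0, Subtype.ext (map_zero (s 1))⟩, ?_⟩
    rintro ⟨⟨_, x, hx, rfl⟩, hy⟩
    apply Subtype.ext
    apply Subtype.ext
    have h3 : L.mkQ (ρ (a 1) x) = L.mkQ x := congrArg Subtype.val hy
    show L.mkQ x = 0
    rw [Submodule.mkQ_apply, Submodule.Quotient.mk_eq_zero]
    exact hf x hx ((Submodule.Quotient.eq L).1 h3)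
  rwa [h2, ← Nat.card_eq_fintype_card] at h1

theorem arith_ind {p k : ℕ} (hp : p.Prime) (h1 : p < 23) (h2 : k ≤ 11) (h3 : p ^ k ≡ 1 [MOD 23]) :
    k = 0 ∨ (k = 11 ∧ (p = 2 ∨ p = 3 ∨ p = 13)) := by
  have : ∀ p : Fin 23, ∀ k : Fin 12, p.1 ^ k.1 % 23 = 1 % 23 →
      k.1 = 0 ∨ (k.1 = 11 ∧ (p.1 = 2 ∨ p.1 = 3 ∨ p.1 = 13)) ∨
        p.1 ∈ [1, 4, 6, 8, 9, 12, 16, 18, 22] := by decide +kernel
  rcases this ⟨p, h1⟩ ⟨k, by omega⟩ h3 with h | h | h
  · exact Or.inl h
  · exact Or.inr h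
  · simp only [List.mem_cons, List.not_mem_nil, or_false] at h
    rcases h with h | h | h | h | h | h | h | h | h <;> (subst h; norm_num at hp)

end Cfsg.Agent.F23
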