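import Mathlib
import Cfsg.Agent.F23.Op

/-! The invariant integral lattice of minimal discriminant. -/

set_option autoImplicit false

namespace Cfsg.Agent.F23

open Module Finset

variable {G : Type*} [Group G] {V : Type*} [AddCommGroup V] [Module ℚ V]

/-- Invariance. -/
abbrev Inv (ρ : G →* Module.End ℚ V) (L : Submodule ℤ V) : Prop := ∀ g, ∀ x ∈ L, ρ g x ∈ L

/-- An invariant integral lattice of minimal discriminant among all rescalings of the form. -/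
structure MinLat (ρ : G →* Module.End ℚ V) (B : LinearMap.BilinForm ℚ V) (L : Submodule ℤ V) :
    Prop where
  lat : Lat L
  inv : Inv ρ L
  int : L ≤ dual B L
  min : ∀ c : ℚ, 0 < c → ∀ M, Lat M → Inv ρ M → M ≤ dual (c • B) M →
    disc 23 B L ≤ disc 23 (c • B) M

theorem zsmul_eq (n : ℤ) (x : V) : n • x = (n : ℚ) • x := (Int.cast_smul_eq_zsmul ℚ n x).symm

theorem qsmul_mem {L : Submodule ℤ V} {q : ℚ} (hq : q ∈ Z) {x : V} (hx : x ∈ L) : q • x ∈ L := by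
  obtain ⟨n, rfl⟩ := memZ.1 hq
  rw [← zsmul_eq]; exact L.smul_mem _ hx

omit [Module ℚ V] in
theorem mem_of_coprime {L : Submodule ℤ V} {m n : ℤ} (h : IsCoprime m n) {x : V}
    (h1 : m • x ∈ L) (h2 : n • x ∈ L) : x ∈ L := by
  obtain ⟨p, q, hpq⟩ := h
  have := add_mem (L.smul_mem p h1) (L.smul_mem q h2)
  rwa [smul_smul, smul_smul, ← add_smul, hpq, one_smul] at this

/-- The elements of the dual killed by `p` modulo the lattice. -/
def Ml (B : LinearMap.BilinForm ℚ V) (L : Submodule ℤ V) (p : ℕ) : Submodule ℤ V where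
  carrier := {x | x ∈ dual B L ∧ (p : ℤ) • x ∈ L}
  add_mem' ha hb := ⟨add_mem ha.1 hb.1, by rw [smul_add]; exact add_mem ha.2 hb.2⟩
  zero_mem' := ⟨zero_mem _, by simp⟩
  smul_mem' r _ ha := ⟨Submodule.smul_mem _ _ ha.1, by
    rw [smul_comm]; exact Submodule.smul_mem _ _ ha.2⟩

variable [Fintype G] {ρ : G →* Module.End ℚ V} {B : LinearMap.BilinForm ℚ V}

theorem Ctx.exists_min (h : Ctx ρ B) : ∃ B' L, Ctx ρ B' ∧ MinLat ρ B' L := by
  classical
  have := h.fd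
  have hex : ∃ n : ℕ, ∃ c : ℚ, 0 < c ∧ ∃ M, Lat M ∧ Inv ρ M ∧ M ≤ dual (c • B) M ∧
      disc 23 (c • B) M = n := by
    obtain ⟨L, hL, hinv⟩ := h.exists_lat
    obtain ⟨b, hb⟩ := hL.exists_basis h.dim
    choose m hm0 hm using fun i => (hL.dual h.pd).exists_nsmul (b i)
    obtain ⟨P, hP0, hP⟩ : ∃ P : ℕ, 0 < P ∧ ∀ i, m i ∣ P :=
      ⟨∏ i, m i, Finset.prod_pos fun i _ => hm0 i, fun i => Finset.dvd_prod_of_mem _ (mem_univ i)⟩
    have hc : (0 : ℚ) < (P : ℚ) := by exact_mod_cast hP0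
    have hint : L ≤ dual ((P : ℚ) • B) L := by
      have h1 : ∀ x ∈ Submodule.span ℤ (Set.range b), (P : ℤ) • x ∈ dual B L := by
        intro x hx
        induction hx using Submodule.span_induction with
        | mem y hy =>
          obtain ⟨i, rfl⟩ := hy
          obtain ⟨k, hk⟩ := hP i
          rw [hk, Nat.cast_mul, mul_comm, mul_smul]
          exact Submodule.smul_mem _ _ (hm i)
        | zero => simp
        | add a b _ _ ha hb => rw [smul_add]; exact add_mem ha hb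
        | smul a b _ hb => rw [smul_comm]; exact Submodule.smul_mem _ _ hb
      intro x hx y hy
      have := h1 x (hb ▸ hx) y hy
      rw [zsmul_eq, map_smul] at this
      simpa using this
    obtain ⟨n, hn⟩ := memZ.1 (disc_int h.dim hL hint)
    have hpos := disc_pos h.dim hL (h.pd.smul hc)
    rw [← hn] at hpos
    have hn0 : 0 ≤ n := by exact_mod_cast hpos.le
    refine ⟨n.toNat, _, hc, L, hL, hinv, hint, ?_⟩
    rw [← hn]
    exact_mod_cast (Int.toNat_of_nonneg hn0).symm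
  obtain ⟨c, hc, L, hL, hinv, hint, hd⟩ := Nat.find_spec hex
  refine ⟨c • B, L, h.smul hc, hL, hinv, hint, fun e he M hM hMi hMint => ?_⟩
  rw [smul_smul] at hMint ⊢
  obtain ⟨n, hn⟩ := memZ.1 (disc_int h.dim hM hMint)
  have hpos := disc_pos h.dim hM (h.pd.smul (mul_pos he hc))
  rw [← hn] at hpos
  have hn0 : 0 ≤ n := by exact_mod_cast hpos.le
  have h1 : disc 23 ((e * c) • B) M = n.toNat := by
    rw [← hn]
    exact_mod_cast (Int.toNat_of_nonneg hn0).symm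
  rw [hd, h1]
  exact_mod_cast Nat.find_min' hex ⟨_, mul_pos he hc, M, hM, hMi, hMint, h1⟩

theorem Ctx.ind_ne (h : Ctx ρ B) {L M : Submodule ℤ V} (hL : Lat L) (hM : Lat M) (hle : L ≤ M) :
    ind L M ≠ 0 := by
  have := h.fd
  intro h0
  have h1 := disc_le h.dim hL hM hle B
  rw [show L.toAddSubgroup.relIndex M.toAddSubgroup = 0 from h0] at h1
  have := disc_pos h.dim hL h.pd
  simp at h1
  linarith

namespace MinLat

variable {L : Submodule ℤ V}

theorem max (h : Ctx ρ B) (hm : MinLat ρ B L) {M : Submodule ℤ V} (hle : L ≤ M) (hi : Inv ρ M)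
    (hint : M ≤ dual B M) : M ≤ L := by
  have := h.fd
  have hM : Lat M := hm.lat.between (hm.lat.dual h.pd) hle (hint.trans (dual_anti hle))
  have h1 := hm.min 1 one_pos M hM hi (by rwa [one_smul])
  rw [one_smul, disc_le h.dim hm.lat hM hle] at h1
  have h2 := disc_pos h.dim hM h.pd
  have h3 : ((ind L M : ℕ) : ℚ) ^ 2 ≤ 1 := by
    by_contra h4
    push Not at h4
    nlinarith
  have h4 : (ind L M) ^ 2 ≤ 1 := by exact_mod_cast h3
  have h5 := h.ind_ne hm.lat hM hle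
  have h6 : ind L M = 1 := by
    have : 1 ≤ ind L M := Nat.one_le_iff_ne_zero.2 h5
    nlinarith
  exact AddSubgroup.relIndex_eq_one.1 h6

theorem not_dvd (h : Ctx ρ B) (hm : MinLat ρ B L) {p : ℕ} (hp : p.Prime) :
    ∃ x ∈ L, ∃ y ∈ L, ∃ n : ℤ, B x y = n ∧ ¬ (p : ℤ) ∣ n := by
  have := h.fd
  by_contra hne
  push Not at hne
  have hp0 : (1 : ℚ) < p := by exact_mod_cast hp.one_lt
  have h1 := hm.min (p : ℚ)⁻¹ (by positivity) L hm.lat hm.inv (fun x hx y hy => by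
    obtain ⟨n, hn⟩ := memZ.1 (hm.int hx y hy)
    obtain ⟨k, hk⟩ := hne x hx y hy n hn.symm
    refine memZ.2 ⟨k, ?_⟩
    simp only [LinearMap.smul_apply, smul_eq_mul, ← hn, hk]
    push_cast
    field_simp)
  rw [disc_smul h.dim hm.lat] at h1
  have h2 := disc_pos h.dim hm.lat h.pd
  have h3 : (p : ℚ)⁻¹ ^ 23 < 1 := pow_lt_one₀ (by positivity) (inv_lt_one_of_one_lt₀ hp0) (by norm_num)
  nlinarith

omit [Fintype G] in
theorem le_Ml (hm : MinLat ρ B L) (p : ℕ) : L ≤ Ml B L p := fun _ hx =>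
  ⟨hm.int hx, L.smul_mem _ hx⟩

theorem Ml_inv (h : Ctx ρ B) (hm : MinLat ρ B L) (p : ℕ) : Inv ρ (Ml B L p) := fun g x hx =>
  ⟨h.dual_inv hm.inv g x hx.1, by rw [← map_zsmul]; exact hm.inv _ _ hx.2⟩

theorem Ml_lat (h : Ctx ρ B) (hm : MinLat ρ B L) (p : ℕ) : Lat (Ml B L p) :=
  have := h.fd
  hm.lat.between (hm.lat.dual h.pd) (hm.le_Ml p) fun _ hx => hx.1

theorem Ml_bound (h : Ctx ρ B) (hm : MinLat ρ B L) {p : ℕ} (hp : 0 < p) :
    ind L (Ml B L p) ^ 2 ≤ p ^ 23 := by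
  have := h.fd
  have hp0 : (0 : ℚ) < p := by exact_mod_cast hp
  have h1 := hm.min p hp0 _ (hm.Ml_lat h p) (hm.Ml_inv h p) (fun x hx y hy => by
    have := hx.1 _ hy.2
    rw [zsmul_eq, map_smul] at this
    simpa using this)
  rw [disc_smul h.dim (hm.Ml_lat h p), disc_le h.dim hm.lat (hm.Ml_lat h p) (hm.le_Ml p)] at h1
  have h2 := disc_pos h.dim (hm.Ml_lat h p) h.pd
  have h3 := le_of_mul_le_mul_right h1 h2
  exact_mod_cast h3

theorem Ml_le (h : Ctx ρ B) (hm : MinLat ρ B L) {p n : ℕ} (hp : p.Prime)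
    (hn : Fintype.card G = 23 * n) (hpn : ¬ p ∣ n) : Ml B L p ≤ L := by
  intro z hz
  obtain ⟨x, hx, y, hy, k, hk, hpk⟩ := hm.not_dvd h hp
  have h1 := h.orth_mem hm.inv hy (x := x) (z := z) fun g => by
    rw [h.pd.symm]; exact hz.1 _ (hm.inv g x hx)
  have h2 : (Fintype.card G : ℚ) * B x y / 23 = ((n * k : ℤ) : ℚ) := by
    rw [hn, hk]; push_cast; ring
  rw [h2, ← zsmul_eq] at h1
  refine mem_of_coprime ?_ hz.2 h1
  have hp' : Prime (p : ℤ) := Nat.prime_iff_prime_int.1 hp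
  rw [hp'.coprime_iff_not_dvd]
  intro hd
  rcases hp'.dvd_or_dvd hd with h3 | h3
  · exact hpn (Int.natCast_dvd_natCast.1 h3)
  · exact hpk h3

theorem p23 (h : Ctx ρ B) (hm : MinLat ρ B L) {x : V} (hx : x ∈ dual B L)
    (h23 : (23 : ℤ) • x ∈ L) : x ∈ L := by
  obtain ⟨n, hn⟩ := h.dvd_card
  refine hm.Ml_le h (p := 23) (by norm_num) hn (fun hd => h.not_dvd ?_) ⟨hx, h23⟩
  rw [hn, sq]
  exact Nat.mul_dvd_mul_left 23 hd

theorem dich (h : Ctx ρ B) (hm : MinLat ρ B L) {a : ZMod 23 → G} (ha : Cyc a) {p : ℕ}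
    (hp : p.Prime) (hp23 : p < 23) {K : Submodule ℤ V} (h1 : L ≤ K) (h2 : K ≤ Ml B L p)
    (hK : ∀ i, ∀ x ∈ K, ρ (a i) x ∈ K) (hN : ∀ x ∈ K, Nm ρ a x ∈ L) :
    K ≤ L ∨ (Ml B L p ≤ K ∧ (p = 2 ∨ p = 3 ∨ p = 13)) := by
  have hKl : Lat K := hm.lat.between (hm.Ml_lat h p) h1 h2
  have hK0 := h.ind_ne hm.lat hKl h1
  have hM0 := h.ind_ne hm.lat (hm.Ml_lat h p) (hm.le_Ml p)
  obtain ⟨k, hk⟩ := ind_pow hK0 hp fun x hx => (h2 hx).2
  obtain ⟨k', hk'⟩ := ind_pow hM0 hp fun x hx => hx.2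
  have hb := hm.Ml_bound h hp.pos
  rw [hk', ← pow_mul, Nat.pow_le_pow_iff_right hp.one_lt] at hb
  have hmul : ind L K * ind K (Ml B L p) = ind L (Ml B L p) :=
    AddSubgroup.relIndex_mul_relIndex _ _ _ h1 h2
  rw [hk, hk'] at hmul
  have hkk : k ≤ k' := (Nat.pow_dvd_pow_iff_le_right hp.one_lt).1 (Dvd.intro _ hmul)
  have hmod := ind_mod ha hK0 (fun i => hm.inv _) hK fun x hx hs =>
    hm.p23 h (h2 hx).1 (ha.smul23_mem (fun i => hm.inv _) hs (hN x hx))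
  rw [hk] at hmod
  rcases arith_ind hp hp23 (by omega) hmod with h3 | ⟨h3, h4⟩
  · left
    rw [h3, pow_zero] at hk
    exact AddSubgroup.relIndex_eq_one.1 hk
  · right
    refine ⟨?_, h4⟩
    have h5 : k' = k := by omega
    rw [h5] at hmul
    have h6 : ind K (Ml B L p) = 1 := by
      have := pow_pos hp.pos k
      nlinarith
    exact AddSubgroup.relIndex_eq_one.1 h6

theorem half_case (h : Ctx ρ B) (hm : MinLat ρ B L) {a : ZMod 23 → G} (ha : Cyc a) {p : ℕ}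
    (hN : ∀ x ∈ Ml B L p, Nm ρ a x ∈ L) (c : ℤ)
    (hc : ∀ x ∈ Ml B L p, op ρ a qr x - c • x ∈ L) : Ml B L p ≤ L := by
  have hMi := hm.Ml_inv h p
  have hR : Ml B L p ⊓ dual B (Ml B L p) ≤ L := by
    refine hm.max h (le_inf (hm.le_Ml p) fun x hx y hy => ?_) (fun g x hx => ?_) ?_
    · rw [h.pd.symm]; exact hy.1 x hx
    · exact ⟨hMi g x hx.1, h.dual_inv hMi g x hx.2⟩
    · exact fun x hx y hy => hx.2 y hy.1
  have hE : ∀ x ∈ Ml B L p, Nm ρ a x - op ρ a qr x - x - c • x ∈ L := by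
    intro x hx
    apply hR
    refine ⟨?_, fun y hy => ?_⟩
    · exact sub_mem (sub_mem (sub_mem (Cyc.Nm_mem (fun i => hMi _) hx)
        (op_mem (fun i => hMi _) _ hx)) hx) (Submodule.smul_mem _ _ hx)
    · have h1 := hx.1 _ (hc y hy)
      have h2 : B (Nm ρ a x - op ρ a qr x - x - c • x) y = B x (op ρ a qr y - c • y) := by
        rw [h.pd.symm, map_sub (B y), ← h.adj_qr ha, h.pd.symm x]
        simp
      rwa [h2]
  intro x hx
  refine hm.p23 h hx.1 ?_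
  have h1 : (2 : ℤ) • op ρ a qr x + x ∈ L := by
    have := add_mem (sub_mem (hc x hx) (hE x hx)) (hN x hx)
    convert this using 1
    module
  have h2 := add_mem (L.smul_mem (2 : ℤ) (op_mem (a := a) (fun i => hm.inv _) qr h1)) h1
  rw [map_add, map_zsmul, ha.qr_sq] at h2
  have h3 := sub_mem (L.smul_mem (24 : ℤ) (hN x hx)) h2
  convert h3 using 1
  simp only [zsmul_eq]
  module

theorem Ml_fix (h : Ctx ρ B) (hm : MinLat ρ B L) {a : ZMod 23 → G} (ha : Cyc a) {p : ℕ}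
    (hp : p.Prime) {x : V} (hx : x ∈ Ml B L p) : ρ (a 1) x - x ∈ L := by
  obtain ⟨n, hn⟩ := h.dvd_card
  have hMi := hm.Ml_inv h p
  have triv : Ml B L p ≤ L → ρ (a 1) x - x ∈ L := fun hle =>
    sub_mem (hm.inv _ _ (hle hx)) (hle hx)
  by_cases hpn : p ∣ n
  swap
  · exact triv (hm.Ml_le h hp hn hpn)
  have hp1 : p ≤ 23 := h.prime_le hp (hn ▸ hpn.mul_left 23)
  have hp2 : p ≠ 23 := by
    rintro rfl
    apply h.not_dvd
    rw [hn, sq]
    exact Nat.mul_dvd_mul_left 23 hpn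
  have hp23 : p < 23 := lt_of_le_of_ne hp1 hp2
  let K : Submodule ℤ V := Ml B L p ⊓ L.comap ((Nm ρ a).restrictScalars ℤ)
  rcases hm.dich h ha hp hp23 (K := K)
    (le_inf (hm.le_Ml p) fun y hy => Cyc.Nm_mem (fun i => hm.inv _) hy) inf_le_left
    (fun i y hy => ⟨hMi _ _ hy.1, by
      show Nm ρ a (ρ (a i) y) ∈ L
      rw [ha.Nm_a]; exact hy.2⟩) (fun y hy => hy.2) with h1 | ⟨h1, h2⟩
  · apply h1
    refine ⟨sub_mem (hMi _ _ hx) hx, ?_⟩
    show Nm ρ a (ρ (a 1) x - x) ∈ L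
    rw [ha.Nm_diff]; exact zero_mem _
  apply triv
  have hN : ∀ y ∈ Ml B L p, Nm ρ a y ∈ L := fun y hy => (h1 hy).2
  obtain ⟨c1, c2, α, β, hα, hβ⟩ : ∃ c1 c2 α β : ℤ, -(c1 + c2) - 1 = p * α ∧ c1 * c2 - 6 = p * β := by
    rcases h2 with rfl | rfl | rfl
    · exact ⟨0, -1, 0, -3, by norm_num, by norm_num⟩
    · exact ⟨0, -1, 0, -2, by norm_num, by norm_num⟩
    · exact ⟨8, 4, -1, 2, by norm_num, by norm_num⟩
  let K1 : Submodule ℤ V := Ml B L p ⊓
    L.comap ((op ρ a qr).restrictScalars ℤ - c1 • LinearMap.id)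
  have hK1 : ∀ y, y ∈ K1 ↔ y ∈ Ml B L p ∧ op ρ a qr y - c1 • y ∈ L := fun y => Iff.rfl
  rcases hm.dich h ha hp hp23 (K := K1)
    (fun y hy => (hK1 y).2 ⟨hm.le_Ml p hy,
      sub_mem (op_mem (fun i => hm.inv _) _ hy) (L.smul_mem _ hy)⟩) inf_le_left
    (fun i y hy => (hK1 _).2 ⟨hMi _ _ hy.1, by
      rw [← ha.a_op, ← map_zsmul, ← map_sub]
      exact hm.inv _ _ ((hK1 y).1 hy).2⟩) (fun y hy => hN y hy.1) with h3 | ⟨h3, -⟩
  · refine hm.half_case h ha hN c2 fun y hy => h3 ((hK1 _).2 ⟨?_, ?_⟩)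
    · exact sub_mem (op_mem (fun i => hMi _) _ hy) (Submodule.smul_mem _ _ hy)
    · have h4 := add_mem (add_mem (L.smul_mem (6 : ℤ) (hN y hy))
        (L.smul_mem α (op_mem (a := a) (fun i => hm.inv _) qr hy.2))) (L.smul_mem β hy.2)
      rw [map_zsmul, smul_smul, smul_smul, mul_comm α, mul_comm β, ← hα, ← hβ] at h4
      rw [map_sub, map_zsmul, ha.qr_sq]
      convert h4 using 1
      simp only [zsmul_eq]
      push_cast
      module
  · exact hm.half_case h ha hN c1 fun y hy => ((hK1 y).1 (h3 hy)).2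

/-- The element of order 23 acts trivially on the discriminant group. -/
theorem dual_fix (h : Ctx ρ B) (hm : MinLat ρ B L) {a : ZMod 23 → G} (ha : Cyc a) {z : V}
    (hz : z ∈ dual B L) : ρ (a 1) z - z ∈ L := by
  have key : ∀ m : ℕ, 0 < m → ∀ z ∈ dual B L, (m : ℤ) • (ρ (a 1) z - z) ∈ L →
      ρ (a 1) z - z ∈ L := by
    intro m
    induction m using Nat.strong_induction_on with
    | _ m ih =>
      intro hm0 z hz hmz
      by_cases h1 : m = 1
      · simpa [h1] using hmz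
      obtain ⟨p, hp, k, rfl⟩ := Nat.exists_prime_and_dvd h1
      have hk0 : 0 < k := Nat.pos_of_mul_pos_left hm0
      have hy : (k : ℤ) • (ρ (a 1) z - z) ∈ dual B L :=
        Submodule.smul_mem _ _ (sub_mem (h.dual_inv hm.inv _ _ hz) hz)
      have h2 := hm.Ml_fix h ha hp (x := (k : ℤ) • (ρ (a 1) z - z))
        ⟨hy, by rwa [smul_smul, ← Nat.cast_mul]⟩
      have h3 := ha.smul23_mem (fun i => hm.inv _) h2
        (by rw [map_zsmul, ha.Nm_diff]; simp)
      exact ih k (by nlinarith [hp.one_lt]) hk0 z hz (hm.p23 h hy h3)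
  obtain ⟨m, hm0, hmz⟩ := hm.lat.exists_nsmul (ρ (a 1) z - z)
  exact key m hm0 z hz hmz

end MinLat

end Cfsg.Agent.F23
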