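import Mathlib
import Cfsg.Agent.F23.Min
import Cfsg.Agent.F23.Lee

/-! The even invariant lattice with cyclic discriminant group generated by the fixed vector. -/

set_option autoImplicit false

namespace Cfsg.Agent.F23

open Module Finset

variable {G : Type*} [Group G] {V : Type*} [AddCommGroup V] [Module ℚ V]

theorem int_subgroup (H : AddSubgroup ℤ) : ∃ d : ℕ, ∀ m : ℤ, m ∈ H ↔ (d : ℤ) ∣ m := by
  obtain ⟨a, ha⟩ := Int.subgroup_cyclic H
  refine ⟨a.natAbs, fun m => ?_⟩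
  rw [ha, AddSubgroup.mem_closure_singleton, Int.natCast_natAbs, abs_dvd]
  exact ⟨fun ⟨n, hn⟩ => ⟨n, by rw [← hn, smul_eq_mul, mul_comm]⟩,
    fun ⟨n, hn⟩ => ⟨n, by rw [hn, smul_eq_mul, mul_comm]⟩⟩

omit [Module ℚ V] in
theorem exists_ord (L : Submodule ℤ V) (v : V) : ∃ d : ℕ, ∀ m : ℤ, m • v ∈ L ↔ (d : ℤ) ∣ m :=
  int_subgroup (L.toAddSubgroup.comap (zmultiplesHom V v))

/-- The even sublattice. -/
def evenSub {B : LinearMap.BilinForm ℚ V} (h : PD B) {L : Submodule ℤ V} (hL : L ≤ dual B L) :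
    Submodule ℤ V where
  carrier := {x | x ∈ L ∧ ∃ k : ℤ, B x x = 2 * k}
  add_mem' := by
    rintro x y ⟨hx, k, hk⟩ ⟨hy, l, hl⟩
    obtain ⟨n, hn⟩ := memZ.1 (hL hx y hy)
    exact ⟨add_mem hx hy, k + n + l, by rw [h.norm_add, hk, hl, ← hn]; push_cast; ring⟩
  zero_mem' := ⟨zero_mem _, 0, by simp⟩
  smul_mem' := by
    rintro r x ⟨hx, k, hk⟩
    refine ⟨L.smul_mem _ hx, r * r * k, ?_⟩
    rw [zsmul_eq]
    simp only [map_smul, LinearMap.smul_apply, smul_eq_mul, hk]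
    push_cast; ring

variable [Fintype G]

/-- The configuration reached after the reduction. -/
structure Core (ρ : G →* Module.End ℚ V) (B : LinearMap.BilinForm ℚ V) (a : ZMod 23 → G)
    (L : Submodule ℤ V) (u : V) (d : ℕ) : Prop where
  ctx : Ctx ρ B
  cyc : Cyc a
  lat : Lat L
  inv : Inv ρ L
  even : ∀ x ∈ L, ∃ k : ℤ, B x x = 2 * k
  udual : u ∈ dual B L
  ufix : ∀ i, ρ (a i) u = u
  fix : ∀ x, (∀ i, ρ (a i) x = x) → ∃ c : ℚ, x = c • u
  fixdual : ∀ x ∈ dual B L, (∀ i, ρ (a i) x = x) → ∃ m : ℤ, x = m • u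
  gen : ∀ z ∈ dual B L, ∃ m : ℤ, z - m • u ∈ L
  ord : ∀ m : ℤ, m • u ∈ L ↔ (d : ℤ) ∣ m
  dpos : 0 < d
  nd23 : ¬ 23 ∣ d
  norm : B u u = 23 / d
  deven : 2 ∣ d
  nd8 : ¬ 8 ∣ d

variable {ρ : G →* Module.End ℚ V} {B : LinearMap.BilinForm ℚ V}

/-- An orbit of mutually orthogonal lines gives a subgroup of index 23. -/
theorem Ctx.not_orth (h : Ctx ρ B) {u : V} (hu : u ≠ 0)
    (ho : ∀ g, B (ρ g u) u = 0 ∨ ρ g u = u ∨ ρ g u = -u) : False := by
  classical
  let H : Subgroup G :=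
    { carrier := {g | ρ g u = u ∨ ρ g u = -u}
      one_mem' := Or.inl (by simp)
      mul_mem' := by
        rintro g k (hg | hg) (hk | hk) <;> simp [hg, hk]
      inv_mem' := by
        rintro g (hg | hg)
        · left
          conv_lhs => rw [← hg]
          exact rho_inv_left ρ g u
        · right
          have := rho_inv_left ρ g u
          rw [hg, map_neg] at this
          exact (neg_eq_iff_eq_neg.1 this) }
  have h1 := h.design u
  have h2 : ∀ g, (B (ρ g u) u) ^ 2 = if g ∈ H then (B u u) ^ 2 else 0 := by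
    intro g
    split_ifs with hg
    · rcases hg with hg | hg <;> simp [hg]
    · rw [(ho g).resolve_right hg]; simp
  simp only [h2, ← sum_filter, sum_const, nsmul_eq_mul] at h1
  have h3 : (univ.filter (· ∈ H)).card = Nat.card H := by
    rw [Nat.card_eq_fintype_card, Fintype.card_subtype]
  have h4 := H.index_mul_card
  rw [Nat.card_eq_fintype_card (α := G)] at h4
  rw [h3, ← h4] at h1
  have h5 := h.pd.pos u hu
  have h6 : (0 : ℚ) < Nat.card H := by exact_mod_cast Nat.card_pos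
  push_cast at h1
  field_simp at h1
  exact (h.idx H).1 (by exact_mod_cast h1.symm)

theorem Ctx.exists_core (h0 : Ctx ρ B) : ∃ B' a L u d, Core ρ B' a L u d := by
  obtain ⟨B, L0, h, hm⟩ := h0.exists_min
  obtain ⟨a, ha⟩ := h.exists_cyc
  have := h.fd
  set L := evenSub h.pd hm.int with hLdef
  have hL : ∀ x, x ∈ L ↔ x ∈ L0 ∧ ∃ k : ℤ, B x x = 2 * k := fun x => Iff.rfl
  have hle : L ≤ L0 := fun x hx => hx.1
  have h2L : ∀ x ∈ L0, (2 : ℤ) • x ∈ L := by
    intro x hx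
    obtain ⟨n, hn⟩ := memZ.1 (hm.int hx x hx)
    refine ⟨L0.smul_mem _ hx, 2 * n, ?_⟩
    rw [zsmul_eq]
    simp only [map_smul, LinearMap.smul_apply, smul_eq_mul, ← hn]
    push_cast; ring
  have hlat : Lat L := hm.lat.of_smul_le hle two_ne_zero h2L
  have hinv : Inv ρ L := fun g x hx => ⟨hm.inv g x hx.1, by rw [h.inv]; exact hx.2⟩
  have hev : ∀ x ∈ L, ∃ k : ℤ, B x x = 2 * k := fun x hx => hx.2
  have hint := int_of_even h.pd hev
  have s1 : ∀ g, ∀ x ∈ L0, ρ g x - x ∈ L := by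
    intro g x hx
    obtain ⟨n, hn⟩ := memZ.1 (hm.int hx x hx)
    obtain ⟨k, hk⟩ := memZ.1 (hm.int (hm.inv g x hx) x hx)
    refine ⟨sub_mem (hm.inv g x hx) hx, n - k, ?_⟩
    rw [h.pd.norm_sub, h.inv, ← hn, ← hk]
    push_cast; ring
  have s3 : ∀ g, ∀ z ∈ dual B L, ρ g z - z ∈ dual B L0 := by
    intro g z hz y hy
    have := hz _ (s1 g⁻¹ y hy)
    rwa [map_sub, ← h.adj, ← LinearMap.sub_apply, ← map_sub] at this
  have p23 : ∀ x ∈ dual B L, (23 : ℤ) • x ∈ L → x ∈ L := by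
    intro x hx h23
    have h1 : (2 : ℤ) • x ∈ dual B L0 := fun y hy => by
      have := hx _ (h2L y hy)
      rwa [map_zsmul, ← LinearMap.smul_apply, ← map_zsmul] at this
    have h2 := hm.p23 h h1 (by rw [smul_comm]; exact L0.smul_mem _ (hle h23))
    have h3 := h2L _ h2
    rw [smul_smul] at h3
    exact mem_of_coprime (by norm_num [Int.isCoprime_iff_gcd_eq_one]) h3 h23
  have hdi : Inv ρ (dual B L) := h.dual_inv hinv
  have step : ∀ z ∈ dual B L, ρ (a 1) (ρ (a 1) z - z) - (ρ (a 1) z - z) ∈ L → ρ (a 1) z - z ∈ L :=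
    fun z hz h1 => p23 _ (sub_mem (hdi _ _ hz) hz)
      (ha.smul23_mem (fun i => hinv _) h1 (by rw [ha.Nm_diff]; exact zero_mem _))
  have dfix : ∀ z ∈ dual B L, ρ (a 1) z - z ∈ L := fun z hz =>
    step z hz (step _ (sub_mem (hdi _ _ hz) hz) (s1 _ _ (hm.dual_fix h ha (s3 _ z hz))))
  -- the generator of the fixed line
  obtain ⟨w, hw0, hwf, hw⟩ := h.fix_line ha
  have hex : ∀ v : V, v ≠ 0 → ∃ x ∈ L, B v x ≠ 0 := by
    intro v hv
    by_contra hne
    push Not at hne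
    have := hlat.eq_zero hne
    exact (h.pd.pos v hv).ne' (by rw [this]; rfl)
  obtain ⟨x0, hx0, hβ⟩ := hex w hw0
  obtain ⟨n0, hn0⟩ := exists_ord (dual B L) ((B w x0)⁻¹ • w)
  set u := (n0 : ℤ) • ((B w x0)⁻¹ • w) with hu
  have hud : u ∈ dual B L := (hn0 _).2 dvd_rfl
  have huf : ∀ i, ρ (a i) u = u := fun i => by rw [hu, map_zsmul, map_smul, hwf]
  have hfd : ∀ x ∈ dual B L, (∀ i, ρ (a i) x = x) → ∃ m : ℤ, x = m • u := by
    intro x hx hxf
    obtain ⟨c, rfl⟩ := hw x hxf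
    obtain ⟨n, hn⟩ := memZ.1 (hx x0 hx0)
    have h1 : c • w = n • ((B w x0)⁻¹ • w) := by
      rw [zsmul_eq, smul_smul, hn]
      congr 1
      simp only [map_smul, LinearMap.smul_apply, smul_eq_mul]
      field_simp
    rw [h1] at hx ⊢
    obtain ⟨m, rfl⟩ := (hn0 n).1 hx
    exact ⟨m, by rw [hu, smul_smul, mul_comm]⟩
  have hfx : ∀ x, (∀ i, ρ (a i) x = x) → ∃ c : ℚ, x = c • u := by
    intro x hxf
    obtain ⟨m, hm0, hmx⟩ := hlat.exists_nsmul x
    obtain ⟨k, hk⟩ := hfd _ (hint hmx) fun i => by rw [map_zsmul, hxf]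
    refine ⟨(m : ℚ)⁻¹ * k, ?_⟩
    have : (m : ℚ) ≠ 0 := by exact_mod_cast hm0.ne'
    rw [mul_smul, ← zsmul_eq, ← hk, zsmul_eq, smul_smul]
    simp [this]
  have hu0 : u ≠ 0 := by
    intro h1
    obtain ⟨c, hc⟩ := hfx w hwf
    exact hw0 (by rw [hc, h1, smul_zero])
  obtain ⟨d, hd⟩ := exists_ord L u
  have hd0 : 0 < d := by
    obtain ⟨m, hm0, hmx⟩ := hlat.exists_nsmul u
    exact Nat.pos_of_dvd_of_pos (Int.natCast_dvd_natCast.1 ((hd m).1 hmx)) hm0
  have hdu : (d : ℤ) • u ∈ L := (hd _).2 dvd_rfl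
  have hd23 : ¬ 23 ∣ d := by
    rintro ⟨k, rfl⟩
    have h1 := p23 ((k : ℤ) • u) (Submodule.smul_mem _ _ hud) (by rwa [smul_smul]; )
    have h2 := Nat.le_of_dvd (Nat.pos_of_mul_pos_left hd0) (Int.natCast_dvd_natCast.1 ((hd _).1 h1))
    omega
  have hgen : ∀ z ∈ dual B L, ∃ m : ℤ, z - m • u ∈ L := by
    intro z hz
    have h1 := Cyc.Nm_sub (ha.sub_mem (fun i => hinv _) one_ne_zero (dfix z hz))
    obtain ⟨k, hk⟩ := hfd _ (Cyc.Nm_mem (fun i => hdi _) hz) fun i => ha.a_Nm i z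
    obtain ⟨p, q, hpq⟩ : IsCoprime (23 : ℤ) d := by
      rw [(show Prime (23 : ℤ) by norm_num).coprime_iff_not_dvd]
      exact fun h2 => hd23 (Int.natCast_dvd_natCast.1 h2)
    refine ⟨k * p, p23 _ (sub_mem hz (Submodule.smul_mem _ _ hud)) ?_⟩
    rw [hk] at h1
    have h2 := sub_mem (L.smul_mem (k * q) hdu) h1
    convert h2 using 1
    have : (k : ℤ) • u = (k * (p * 23 + q * d)) • u := by rw [hpq, mul_one]
    rw [this]
    module
  -- a lattice vector with inner product one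
  obtain ⟨x1, hx1, hux1⟩ : ∃ x ∈ L, B u x = 1 := by
    let J : AddSubgroup ℤ :=
      { carrier := {n | ∃ x ∈ L, B u x = n}
        add_mem' := by
          rintro m n ⟨x, hx, hm⟩ ⟨y, hy, hn⟩
          exact ⟨x + y, add_mem hx hy, by rw [map_add, hm, hn]; push_cast; rfl⟩
        zero_mem' := ⟨0, zero_mem _, by simp⟩
        neg_mem' := by
          rintro n ⟨x, hx, hn⟩
          exact ⟨-x, neg_mem hx, by rw [map_neg, hn]; push_cast; rfl⟩ }
    obtain ⟨k, hk⟩ := int_subgroup J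
    have hk0 : (k : ℚ) ≠ 0 := by
      obtain ⟨x, hx, hne⟩ := hex u hu0
      obtain ⟨n, hn⟩ := memZ.1 (hud x hx)
      obtain ⟨m, rfl⟩ := (hk n).1 ⟨x, hx, hn.symm⟩
      intro h1
      apply hne
      rw [← hn]; push_cast; rw [h1, zero_mul]
    obtain ⟨m, hm1⟩ := hfd ((k : ℚ)⁻¹ • u) (fun y hy => by
      obtain ⟨n, hn⟩ := memZ.1 (hud y hy)
      obtain ⟨m, rfl⟩ := (hk n).1 ⟨y, hy, hn.symm⟩
      refine memZ.2 ⟨m, ?_⟩
      simp only [map_smul, LinearMap.smul_apply, smul_eq_mul, ← hn]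
      push_cast; field_simp) fun i => by rw [map_smul, huf]
    have h1 : (k : ℚ)⁻¹ = m := by
      rw [zsmul_eq, ← sub_eq_zero, ← sub_smul] at hm1
      exact sub_eq_zero.1 ((smul_eq_zero.1 hm1).resolve_right hu0)
    have h2 : (1 : ℤ) = k * m := by
      have : (1 : ℚ) = k * m := by rw [← h1]; field_simp
      exact_mod_cast this
    obtain ⟨x, hx, hx1⟩ := (hk 1).2 ⟨m, h2⟩
    exact ⟨x, hx, by simpa using hx1⟩
  have hdq : (0 : ℚ) < d := by exact_mod_cast hd0
  have hdB : ∀ z, B z ((d : ℤ) • u) = d * B z u := fun z => by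
    rw [map_zsmul]; simp
  have hnorm : B u u = 23 / d := by
    obtain ⟨k, hk⟩ := hfd _ (hint (Cyc.Nm_mem (fun i => hinv _) hx1)) fun i => ha.a_Nm i x1
    obtain ⟨m, rfl⟩ := (hd k).1 (hk ▸ Cyc.Nm_mem (fun i => hinv _) hx1)
    obtain ⟨n, hn⟩ := memZ.1 (hud _ hdu)
    rw [hdB] at hn
    have h1 : B u (Nm ρ a x1) = 23 := by
      rw [← h.adj_Nm ha, Cyc.Nm_fix huf, map_smul, LinearMap.smul_apply, hux1]; simp
    rw [hk, map_zsmul, zsmul_eq_mul] at h1
    push_cast at h1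
    have h2 : n * m = 23 := by
      have : (n : ℚ) * m = 23 := by rw [hn, ← h1]; ring
      exact_mod_cast this
    have hpos := h.pd.pos u hu0
    have h3 : 0 < n := by
      have : (0 : ℚ) < n := by rw [hn]; positivity
      exact_mod_cast this
    have h4 : n.natAbs ∣ 23 := Int.natCast_dvd_natCast.1 (by
      rw [Int.natCast_natAbs, abs_dvd]; exact Dvd.intro _ h2)
    rcases (Nat.dvd_prime (by norm_num)).1 h4 with h5 | h5
    · exfalso
      have h6 : n = 1 := by omega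
      rw [h6] at hn
      push_cast at hn
      refine h.not_orth hu0 fun g => ?_
      obtain ⟨j, hj⟩ := memZ.1 (hdi g u hud _ hdu)
      rw [hdB] at hj
      rcases lt_trichotomy j 0 with h7 | h7 | h7
      · right; right
        refine h.pd.eq_neg_of_ip (h.inv g u u) ?_
        have : (j : ℚ) ≤ -1 := by exact_mod_cast (by omega : j ≤ -1)
        rw [h.inv]
        nlinarith
      · left
        rw [h7] at hj
        simpa [hdq.ne'] using hj
      · right; left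
        refine h.pd.eq_of_ip (h.inv g u u) ?_
        have : (1 : ℚ) ≤ j := by exact_mod_cast (by omega : 1 ≤ j)
        rw [h.inv]
        nlinarith
    · have h6 : n = 23 := by omega
      rw [h6] at hn
      push_cast at hn
      field_simp
      linarith
  have hmu : ∀ m : ℤ, B (m • u) (m • u) = m * m * 23 / d := fun m => by
    rw [zsmul_eq]
    simp only [map_smul, LinearMap.smul_apply, smul_eq_mul, hnorm]
    ring
  have hd2 : 2 ∣ d := by
    obtain ⟨k, hk⟩ := hev _ hdu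
    rw [hmu] at hk
    have h1 : (d : ℤ) * 23 = 2 * k := by
      have : (d : ℚ) * 23 = 2 * k := by rw [← hk]; push_cast; field_simp
      exact_mod_cast this
    omega
  refine ⟨B, a, L, u, d, h, ha, hlat, hinv, hev, hud, huf, hfx, hfd, hgen, hd, hd0, hd23, hnorm,
    hd2, ?_⟩
  rintro ⟨e, he⟩
  have he0 : 0 < e := by omega
  have hev' : ∀ z ∈ Ml B L 2, ∃ k : ℤ, B z z = 2 * k := by
    intro z hz
    obtain ⟨m, hzm⟩ := hgen z hz.1
    have h1 : (2 * m) • u ∈ L := by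
      have := sub_mem hz.2 (L.smul_mem (2 : ℤ) hzm)
      convert this using 1
      push_cast
      module
    obtain ⟨t, ht⟩ := (hd _).1 h1
    have h2 : m = 4 * e * t := by
      rw [he] at ht; push_cast at ht; linarith
    obtain ⟨k, hk⟩ := hev _ hzm
    obtain ⟨n, hn⟩ := memZ.1 (Submodule.smul_mem _ m hud _ hzm)
    refine ⟨k + n + 23 * e * t * t, ?_⟩
    have h3 : z = m • u + (z - m • u) := by abel
    rw [h3, h.pd.norm_add, hk, ← hn, hmu, h2, he]
    have : (e : ℚ) ≠ 0 := by exact_mod_cast he0.ne'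
    push_cast
    field_simp
    ring
  have hle' : L0 ≤ Ml B L 2 := fun x hx => ⟨dual_anti hle (hm.int hx), h2L x hx⟩
  have hmax := hm.max h hle' (fun g x hx => ⟨hdi g x hx.1, by
    rw [← map_zsmul]; exact hinv _ _ hx.2⟩) (int_of_even h.pd hev')
  have h1 : ((4 * e : ℕ) : ℤ) • u ∈ Ml B L 2 := ⟨Submodule.smul_mem _ _ hud, by
    rw [smul_smul, hd, he]; exact ⟨1, by push_cast; ring⟩⟩
  have h2 := (hd _).1 ((hL _).2 ⟨hmax h1, hev' _ h1⟩)
  have h3 := Nat.le_of_dvd (by omega) (Int.natCast_dvd_natCast.1 h2)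
  omega

end Cfsg.Agent.F23
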