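import Mathlib
import Cfsg.Agent.F23.Core

/-! A root orthogonal to the fixed vector yields a cyclic system of type affine `A₂₂`. -/

set_option autoImplicit false

namespace Cfsg.Agent.F23

open Module Finset

variable {G : Type*} [Group G] {V : Type*} [AddCommGroup V] [Module ℚ V] [Fintype G]
  {ρ : G →* Module.End ℚ V} {B : LinearMap.BilinForm ℚ V} {a : ZMod 23 → G}
  {L : Submodule ℤ V} {u : V} {d : ℕ}

/-- The Gram vector of the affine `A₂₂` diagram. -/
def tt (k : ZMod 23) : ℤ := 2 * dl 0 k - dl 1 k - dl (-1) k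

namespace Core

theorem mul (h : Core ρ B a L u d) {j : ZMod 23} (hj : j ≠ 0) :
    Core ρ B (fun k => a (j * k)) L u d :=
  { h with
    cyc := h.cyc.mul hj
    ufix := fun _ => h.ufix _
    fix := fun x hx => h.fix x (h.cyc.fix_all hj (by simpa using hx 1))
    fixdual := fun x hx hf => h.fixdual x hx (h.cyc.fix_all hj (by simpa using hf 1)) }

theorem pd (h : Core ρ B a L u d) : PD B := h.ctx.pd

theorem int (h : Core ρ B a L u d) : L ≤ dual B L := int_of_even h.pd h.even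

theorem dq (h : Core ρ B a L u d) : (0 : ℚ) < d := by exact_mod_cast h.dpos

theorem u_ne (h : Core ρ B a L u d) : u ≠ 0 := by
  intro h0
  have h1 := h.norm
  rw [h0, map_zero] at h1
  have := h.dq
  have : (0 : ℚ) < 23 / d := by positivity
  linarith

theorem ip_a (h : Core ρ B a L u d) (i : ZMod 23) (x : V) : B u (ρ (a i) x) = B u x := by
  conv_lhs => rw [← h.ufix i]
  rw [h.ctx.inv]

theorem ip_Nm (h : Core ρ B a L u d) (x : V) : B u (Nm ρ a x) = 23 * B u x := by
  rw [Nm_apply, map_sum]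
  simp [h.ip_a]

theorem fix_zero (h : Core ρ B a L u d) {x : V} (hx : ∀ i, ρ (a i) x = x) (h0 : B u x = 0) :
    x = 0 := by
  obtain ⟨c, rfl⟩ := h.fix x hx
  rw [map_smul, smul_eq_mul] at h0
  rcases mul_eq_zero.1 h0 with h1 | h1
  · rw [h1, zero_smul]
  · exact absurd (h.pd.eq_zero h1) h.u_ne

theorem Nm_zero (h : Core ρ B a L u d) {x : V} (h0 : B u x = 0) : Nm ρ a x = 0 :=
  h.fix_zero (fun i => h.cyc.a_Nm i x) (by rw [h.ip_Nm, h0, mul_zero])

theorem pow23 (h : Core ρ B a L u d) {y : V} (hy : y ∈ L) :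
    ∃ y' ∈ L, ((1 - ρ (a 1) : Module.End ℚ V) ^ 23) y = (23 : ℚ) • y' := by
  let S : Subring (Module.End ℚ V) :=
    { carrier := {T | ∀ x ∈ L, T x ∈ L}
      mul_mem' := fun hT hR x hx => hT _ (hR x hx)
      one_mem' := fun x hx => hx
      add_mem' := fun hT hR x hx => add_mem (hT x hx) (hR x hx)
      zero_mem' := fun x _ => zero_mem _
      neg_mem' := fun hT x hx => neg_mem (hT x hx) }
  let s : S := ⟨ρ (a 1), h.inv _⟩
  obtain ⟨r, hr⟩ := (Commute.one_left (-s)).exists_add_pow_prime_eq (p := 23) (by norm_num)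
  have hs : s ^ 23 = 1 := by
    apply Subtype.ext
    show ρ (a 1) ^ 23 = 1
    have : ∀ n : ℕ, ρ (a 1) ^ n = ρ (a n) := by
      intro n
      induction n with
      | zero => simp [h.cyc.zero]
      | succ n ih => rw [pow_succ, ih, ← map_mul, ← h.cyc.add, Nat.cast_succ]
    rw [this, show ((23 : ℕ) : ZMod 23) = 0 from rfl, h.cyc.zero, map_one]
  rw [Odd.neg_pow (by decide), hs, one_pow, add_neg_cancel, zero_add, mul_one, mul_assoc] at hr
  refine ⟨(-s * r).1 y, (-s * r).2 y hy, ?_⟩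
  have h1 := congrArg (fun T : S => T.1 y) hr
  simp only [SubmonoidClass.coe_pow, Subring.coe_add, Subring.coe_one, Subring.coe_neg,
    Subring.coe_mul, Subring.coe_natCast] at h1
  rw [sub_eq_add_neg]
  refine h1.trans ?_
  rw [Module.End.mul_apply, Module.End.natCast_apply, ← Nat.cast_smul_eq_nsmul ℚ]
  rfl

theorem exists_deep (h : Core ρ B a L u d) {r0 : V} (h1 : r0 ∈ L) (h2 : B u r0 = 0)
    (h3 : B r0 r0 = 2) : ∃ r ∈ L, B u r = 0 ∧ B r r = 2 ∧
      ∀ i, B (r - ρ (a i) r) (r - ρ (a i) r) ≠ 2 := by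
  set T : Module.End ℚ V := 1 - ρ (a 1) with hT
  have hTa : ∀ x, T x = x - ρ (a 1) x := fun x => rfl
  let P : ℕ → Prop := fun k => ∃ y ∈ L, B u y = 0 ∧ B ((T ^ k) y) ((T ^ k) y) = 2
  have hP0 : P 0 := ⟨r0, h1, h2, by simpa using h3⟩
  have hP23 : ¬ P 23 := by
    rintro ⟨y, hy, -, hn⟩
    obtain ⟨y', hy', he⟩ := h.pow23 hy
    obtain ⟨k, hk⟩ := h.even y' hy'
    rw [he] at hn
    simp only [map_smul, LinearMap.smul_apply, smul_eq_mul, hk] at hn
    have : (23 * (23 * (2 * k)) : ℤ) = 2 := by exact_mod_cast hn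
    omega
  obtain ⟨k, ⟨y, hy, hy0, hn⟩, hk⟩ : ∃ k, P k ∧ ¬ P (k + 1) := by
    by_contra hne
    push Not at hne
    have : ∀ k, P k := fun k => by
      induction k with
      | zero => exact hP0
      | succ k ih => exact hne k ih
    exact hP23 (this 23)
  have hpow : ∀ k : ℕ, (T ^ k) y ∈ L ∧ B u ((T ^ k) y) = 0 := by
    intro k
    induction k with
    | zero => exact ⟨hy, hy0⟩
    | succ k ih =>
      rw [pow_succ', Module.End.mul_apply, hTa]
      exact ⟨sub_mem ih.1 (h.inv _ _ ih.1), by rw [map_sub, h.ip_a, sub_self]⟩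
  refine ⟨(T ^ k) y, (hpow k).1, (hpow k).2, hn, fun i hi => hk ?_⟩
  have hdiv : ∀ i, ∃ y' ∈ L, B u y' = 0 ∧ y - ρ (a i) y = T y' := by
    intro i
    refine Cyc.ind one_ne_zero (p := fun i => ∃ y' ∈ L, B u y' = 0 ∧ y - ρ (a i) y = T y')
      ⟨0, zero_mem _, map_zero _, by simp [h.cyc.app0]⟩ ?_ i
    rintro i ⟨y', h1, h2, h3⟩
    refine ⟨y' + ρ (a i) y, add_mem h1 (h.inv _ _ hy), by rw [map_add, h2, h.ip_a, hy0, add_zero],
      ?_⟩
    rw [map_add, ← h3, hTa, h.cyc.app]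
    abel
  obtain ⟨y', h4, h5, h6⟩ := hdiv i
  refine ⟨y', h4, h5, ?_⟩
  have hc : Commute (ρ (a i)) (T ^ k) := by
    refine Commute.pow_right (Commute.sub_right (Commute.one_right _) ?_) k
    unfold Commute SemiconjBy
    rw [← map_mul, ← map_mul, ← h.cyc.add, ← h.cyc.add, add_comm]
  have h7 : (T ^ (k + 1)) y' = (T ^ k) y - ρ (a i) ((T ^ k) y) := by
    rw [pow_succ, Module.End.mul_apply, ← h6, map_sub]
    congr 1
    exact (LinearMap.congr_fun hc.eq y).symm
  rw [h7, hi]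

theorem exists_affine (h : Core ρ B a L u d) {r0 : V} (h1 : r0 ∈ L) (h2 : B u r0 = 0)
    (h3 : B r0 r0 = 2) : ∃ j : ZMod 23, j ≠ 0 ∧ ∃ r ∈ L, B u r = 0 ∧
      ∀ k, B r (ρ (a (j * k)) r) = tt k := by
  classical
  obtain ⟨r, hr, hr0, hr2, hd⟩ := h.exists_deep h1 h2 h3
  have hrne : r ≠ 0 := by rintro rfl; simp at hr2
  choose t ht using fun i => memZ.1 (h.int hr _ (h.inv (a i) r hr))
  have hnf : ∀ i, i ≠ 0 → ρ (a i) r ≠ r := fun i hi hf =>
    hrne (h.fix_zero (h.cyc.fix_all hi hf) hr0)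
  have t0 : t 0 = 2 := by
    have := ht 0
    rw [h.cyc.app0, hr2] at this
    exact_mod_cast this
  have tneg : ∀ i, t (-i) = t i := fun i => by
    have : (t (-i) : ℚ) = t i := by rw [ht, ht, ← h.ctx.adj_a h.cyc, h.pd.symm]
    exact_mod_cast this
  have tval : ∀ i, i ≠ 0 → t i = 0 ∨ t i = -1 := by
    intro i hi
    have e1 := h.pd.norm_sub r (ρ (a i) r)
    have e2 := h.pd.norm_add r (ρ (a i) r)
    rw [h.ctx.inv, hr2, ← ht] at e1 e2
    have p1 := h.pd.pos (r - ρ (a i) r) (fun h0 => hnf i hi (sub_eq_zero.1 h0).symm)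
    have p2 := h.pd.pos (r + ρ (a i) r) (fun h0 => by
      have h4 : ρ (a i) r = -r := eq_neg_of_add_eq_zero_right h0
      refine hnf (i + i) ?_ (by rw [← h.cyc.app, h4, map_neg, h4, neg_neg])
      rw [← two_mul]
      exact mul_ne_zero (by decide) hi)
    have p3 := hd i
    rw [e1] at p1 p3
    rw [e2] at p2
    have q1 : 0 < 2 - 2 * t i + 2 := by exact_mod_cast p1
    have q2 : 0 < 2 + 2 * t i + 2 := by exact_mod_cast p2
    have q3 : 2 - 2 * t i + 2 ≠ 2 := by exact_mod_cast p3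
    omega
  have tsum : ∑ i, t i = 0 := by
    have : B r (Nm ρ a r) = 0 := by rw [h.Nm_zero hr0, map_zero]
    rw [Nm_apply, map_sum] at this
    simp only [← ht] at this
    exact_mod_cast this
  obtain ⟨j, hj, htj⟩ : ∃ j, j ≠ 0 ∧ t j = -1 := by
    by_contra hne
    push Not at hne
    rw [Finset.sum_eq_single 0 (fun i _ hi => (tval i hi).resolve_right (hne i hi)) (by simp),
      t0] at tsum
    norm_num at tsum
  have hjj : j ≠ -j := by
    intro h0
    rw [eq_neg_iff_add_eq_zero, ← two_mul] at h0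
    exact mul_ne_zero (by decide) hj h0
  have tz : ∀ i, i ≠ 0 → i ≠ j → i ≠ -j → t i = 0 := by
    intro i i0 i1 i2
    refine (tval i i0).resolve_right fun hi => ?_
    have hle : ∑ k ∈ ({0, j, -j, i} : Finset (ZMod 23)), -t k ≤ ∑ k, -t k := by
      refine Finset.sum_le_sum_of_subset_of_nonneg (subset_univ _) fun k _ hk => ?_
      have : k ≠ 0 := by rintro rfl; simp at hk
      rcases tval k this with h4 | h4 <;> omega
    rw [Finset.sum_neg_distrib (s := univ), tsum, sum_insert (by simp [hj.symm, hj, i0.symm]),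
      sum_insert (by simp [hjj, i1.symm]), sum_insert (by simp [i2.symm]), sum_singleton, tneg,
      t0, htj, hi] at hle
    omega
  refine ⟨j, hj, r, hr, hr0, fun k => ?_⟩
  rw [← ht]
  congr 1
  by_cases k0 : k = 0
  · rw [k0, mul_zero, t0]; decide
  by_cases k1 : k = 1
  · rw [k1, mul_one, htj]; decide
  by_cases k2 : k = -1
  · rw [k2, mul_neg_one, tneg, htj]; decide
  rw [tz _ (mul_ne_zero hj k0) (fun h0 => k1 (mul_left_cancel₀ hj (by rw [h0, mul_one])))
    (fun h0 => k2 (mul_left_cancel₀ hj (by rw [h0, mul_neg_one])))]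
  simp [tt, dl, k0, k1, k2]

end Core

/-- Coefficients of the dual vector. -/
def cc (k : ZMod 23) : ℤ := 22 - k.val

theorem conv_cc : conv (dl 1) cc = fun i => 1 + 1 * cc i + (-23) * dl 0 i := by
  funext i; revert i; decide +kernel

theorem cc_tt : ∀ k, ∑ i, cc i * tt (-i + k) = 23 * (dl 0 k - dl (-1) k) := by decide +kernel

theorem cc_dl : ∀ k, ∑ i, cc i * (dl 0 (k + i) - dl (-1) (k + i)) = 23 * dl 0 k - 1 := by
  decide +kernel

/-- The vectors `ε̄_i` of the weight lattice of `A₂₂`. -/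
theorem Core.exists_eps (h : Core ρ B a L u d) {r : V} (hr0 : B u r = 0)
    (ht : ∀ k, B r (ρ (a k) r) = tt k) : ∃ e : V, B u e = 0 ∧ e - ρ (a 1) e = r ∧
      ∀ k, B e (ρ (a k) e) = dl 0 k - 1 / 23 := by
  have hN := h.Nm_zero hr0
  refine ⟨(23 : ℚ)⁻¹ • op ρ a cc r, ?_, ?_, fun k => ?_⟩
  · simp [op_apply, h.ip_a, hr0]
  · rw [map_smul, ← op_dl ρ a 1, h.cyc.op_op, conv_cc, op_lin, hN, op_dl, h.cyc.app0]
    push_cast
    module
  · have h1 : ∀ k, B (op ρ a cc r) (ρ (a k) r) = ((23 * (dl 0 k - dl (-1) k) : ℤ) : ℚ) := by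
      intro k
      rw [← cc_tt, op_apply]
      simp only [map_sum, map_smul, LinearMap.sum_apply, LinearMap.smul_apply, smul_eq_mul,
        h.ctx.adj_a h.cyc, h.cyc.app, ht]
      push_cast; rfl
    have h2 : B (op ρ a cc r) (ρ (a k) (op ρ a cc r)) = ((23 * (23 * dl 0 k - 1) : ℤ) : ℚ) := by
      rw [← cc_dl]
      conv_lhs => arg 2; rw [op_apply]
      simp only [map_sum, map_smul, smul_eq_mul, h.cyc.app, h1]
      push_cast
      rw [Finset.mul_sum]
      exact sum_congr rfl fun i _ => by ring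
    simp only [map_smul, LinearMap.smul_apply, smul_eq_mul, h2]
    push_cast
    ring

end Cfsg.Agent.F23
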