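import Mathlib
import Cfsg.Agent.F23.Root1

/-! No root of the lattice is orthogonal to the fixed vector. -/

set_option autoImplicit false

namespace Cfsg.Agent.F23

open Module Finset

variable {G : Type*} [Group G] {V : Type*} [AddCommGroup V] [Module ℚ V] [Fintype G]
  {ρ : G →* Module.End ℚ V} {B : LinearMap.BilinForm ℚ V} {a : ZMod 23 → G}
  {L : Submodule ℤ V} {u : V} {d : ℕ}

theorem abs_sum_le (n : ZMod 23 → ℤ) : |∑ i, n i| ≤ ∑ i, n i * n i :=
  (Finset.abs_sum_le_sum_abs _ _).trans (sum_le_sum fun i _ => by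
    have := Int.le_self_sq |n i|
    rwa [sq_abs, sq] at this)

theorem ar_root (d k k0 s s0 T : ℤ) (hd : 2 ≤ d)
    (h1 : (k * k * d = 24 ∧ (s = 1 ∨ s = -1)) ∨ (k * k * d = 4 ∧ (s = 2 ∨ s = -2)))
    (h0 : (k0 * k0 * d = 24 ∧ (s0 = 1 ∨ s0 = -1)) ∨ (k0 * k0 * d = 4 ∧ (s0 = 2 ∨ s0 = -2)))
    (hT : d * k * k0 - s * s0 = 23 * T) : s * k0 = s0 * k := by
  have b1 : k * k ≤ 12 := by rcases h1 with h | h <;> nlinarith [mul_self_nonneg k]
  have b0 : k0 * k0 ≤ 12 := by rcases h0 with h | h <;> nlinarith [mul_self_nonneg k0]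
  have c1 : -4 < k := by nlinarith
  have c2 : k < 4 := by nlinarith
  have c3 : -4 < k0 := by nlinarith
  have c4 : k0 < 4 := by nlinarith
  clear b1 b0
  interval_cases k <;> interval_cases k0 <;>
    rcases h1 with ⟨h1, rfl | rfl⟩ | ⟨h1, rfl | rfl⟩ <;>
    rcases h0 with ⟨h0, rfl | rfl⟩ | ⟨h0, rfl | rfl⟩ <;> omega

theorem ar_norm (q s k d : ℤ) (hs : |s| ≤ q) (hs' : |s| ≤ 11) (hd : 2 ∣ d) (hd0 : 0 < d)
    (hd23 : ¬ 23 ∣ d) (h : 23 * q - s * s + k * k * d = 46) :
    (k = 0 ∧ s = 0) ∨ (k * k * d = 24 ∧ (s = 1 ∨ s = -1)) ∨ (k * k * d = 4 ∧ (s = 2 ∨ s = -2)) := by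
  have hK : 0 ≤ k * k * d := mul_nonneg (mul_self_nonneg k) hd0.le
  have hK2 : 2 ∣ k * k * d := hd.mul_left _
  obtain ⟨a1, a2⟩ := abs_le.1 hs
  obtain ⟨a3, a4⟩ := abs_le.1 hs'
  have h46 : k * k * d ≠ 46 := by
    intro h1
    have hp : Prime (23 : ℤ) := by norm_num
    rcases hp.dvd_or_dvd (show (23 : ℤ) ∣ k * k * d from ⟨2, h1⟩) with h2 | h2
    · obtain ⟨m, rfl⟩ := (hp.dvd_or_dvd h2).elim id id
      have : 529 * (m * m * d) = 46 := by rw [← h1]; ring
      omega
    · exact hd23 h2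
  have h0 : k * k * d = 0 → k = 0 := fun h1 => by
    rcases mul_eq_zero.1 h1 with h2 | h2
    · exact mul_self_eq_zero.1 h2
    · omega
  generalize k * k * d = K at *
  interval_cases s <;> omega

namespace Core

variable {e : V}

theorem eps_ip (h : Core ρ B a L u d) (he : ∀ k, B e (ρ (a k) e) = dl 0 k - 1 / 23)
    (i k : ZMod 23) : B (ρ (a i) e) (ρ (a k) e) = (if i = k then 1 else 0) - 1 / 23 := by
  rw [h.ctx.adj_a h.cyc, h.cyc.app, he, dl]
  congr 1
  by_cases hik : i = k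
  · simp [hik]
  · rw [if_neg hik, if_neg (fun h0 => hik (by linear_combination -h0))]; simp

theorem eps_sum (h : Core ρ B a L u d) (hu : B u e = 0) : ∑ i, ρ (a i) e = 0 := by
  rw [← Nm_apply, h.Nm_zero hu]

theorem expand (h : Core ρ B a L u d) (hu : B u e = 0)
    (he : ∀ k, B e (ρ (a k) e) = dl 0 k - 1 / 23) (y : V) :
    y = ∑ i, B (ρ (a i) e) y • ρ (a i) e + ((d : ℚ) / 23 * B u y) • u := by
  classical
  have := h.ctx.fd
  have hue : ∀ i, B u (ρ (a i) e) = 0 := fun i => by rw [h.ip_a, hu]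
  have hue' : ∀ i, B (ρ (a i) e) u = 0 := fun i => by rw [h.pd.symm, hue]
  have hd := h.dq
  have hli : LinearIndependent ℚ fun i => ρ (a i) e + u := by
    rw [Fintype.linearIndependent_iff]
    intro c hc k
    have h1 := congrArg (B u) hc
    have h2 := congrArg (B (ρ (a k) e)) hc
    simp only [map_sum, map_smul, map_add, hue, hue', h.eps_ip he, smul_eq_mul, map_zero, zero_add,
      add_zero, ← Finset.sum_mul, h.norm, mul_sub, sum_sub_distrib] at h1 h2
    have h3 : ∑ i, c i = 0 := (mul_eq_zero.1 h1).resolve_right (by positivity)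
    simpa [h3] using h2
  let b := basisOfLinearIndependentOfCardEqFinrank hli (by rw [h.ctx.dim, ZMod.card])
  let Φ : Module.End ℚ V := ∑ i, (B (ρ (a i) e)).smulRight (ρ (a i) e) +
    (((d : ℚ) / 23) • B u).smulRight u
  have hΦ : ∀ y, Φ y = ∑ i, B (ρ (a i) e) y • ρ (a i) e + ((d : ℚ) / 23 * B u y) • u := by
    intro y; simp [Φ, LinearMap.sum_apply]
  have : Φ = LinearMap.id := b.ext fun k => by
    rw [hΦ, coe_basisOfLinearIndependentOfCardEqFinrank]
    simp only [map_add, hue, hue', h.eps_ip he, add_zero, zero_add, h.norm, sub_smul,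
      sum_sub_distrib, ← Finset.smul_sum, h.eps_sum hu, LinearMap.id_apply]
    rw [show (d : ℚ) / 23 * (23 / d) = 1 by field_simp]
    simp
  rw [← hΦ, this, LinearMap.id_apply]

theorem parseval (h : Core ρ B a L u d) (hu : B u e = 0)
    (he : ∀ k, B e (ρ (a k) e) = dl 0 k - 1 / 23) {y z : V} {n m : ZMod 23 → ℤ}
    (hn : ∀ i, B (ρ (a i) e) y = n i - (∑ k, n k : ℤ) / 23)
    (hm : ∀ i, B (ρ (a i) e) z = m i - (∑ k, m k : ℤ) / 23) :
    B y z = (∑ i, n i * m i : ℤ) - (∑ k, n k : ℤ) * (∑ k, m k : ℤ) / 23 +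
      (d : ℚ) / 23 * B u y * B u z := by
  conv_lhs => rw [h.expand hu he y]
  simp only [map_add, map_sum, map_smul, LinearMap.add_apply, LinearMap.sum_apply,
    LinearMap.smul_apply, smul_eq_mul, hn, hm]
  congr 1
  set s : ℚ := ((∑ k, n k : ℤ) : ℚ) with hs
  set t : ℚ := ((∑ k, m k : ℤ) : ℚ) with ht
  have e1 : ∑ k, (n k : ℚ) = s := by rw [hs]; push_cast; rfl
  have e2 : ∑ k, (m k : ℚ) = t := by rw [ht]; push_cast; rfl
  have : ∀ i, ((n i : ℚ) - s / 23) * (m i - t / 23) =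
      n i * m i - n i * (t / 23) - s / 23 * m i + s * t / 529 := fun i => by ring
  simp only [this, sum_add_distrib, sum_sub_distrib, ← Finset.sum_mul, ← Finset.mul_sum, e1, e2,
    sum_const, card_univ, ZMod.card, nsmul_eq_mul]
  push_cast
  ring

theorem coords (h : Core ρ B a L u d) (hu : B u e = 0) {y : V}
    (hy : ∀ k, B (ρ (a k) (e - ρ (a 1) e)) y ∈ Z) : ∃ n : ZMod 23 → ℤ, |∑ k, n k| ≤ 11 ∧
      ∀ i, B (ρ (a i) e) y = n i - (∑ k, n k : ℤ) / 23 := by
  have h1 : ∀ i, B (ρ (a i) e) y - B e y ∈ Z := by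
    intro i
    refine Cyc.ind one_ne_zero (p := fun i => B (ρ (a i) e) y - B e y ∈ Z)
      (by simp [h.cyc.app0]) (fun i hi => ?_) i
    have := sub_mem hi (hy i)
    rw [map_sub, h.cyc.app, add_comm i 1, map_sub, LinearMap.sub_apply] at this
    convert this using 1
    ring
  choose m hm using fun i => memZ.1 (h1 i)
  have h2 : ((∑ i, m i : ℤ) : ℚ) = -23 * B e y := by
    have := congrArg (fun w => B w y) (h.eps_sum hu)
    simp only [map_sum, LinearMap.sum_apply, map_zero, LinearMap.zero_apply] at this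
    push_cast
    simp only [hm, sum_sub_distrib, this, sum_const, card_univ, ZMod.card, nsmul_eq_mul]
    push_cast; ring
  set S := ∑ i, m i with hS
  have h3 : ∑ k, (m k - (S + 11) / 23) = S - 23 * ((S + 11) / 23) := by
    rw [sum_sub_distrib, sum_const, card_univ, ZMod.card]; simp [hS]
  refine ⟨fun i => m i - (S + 11) / 23, ?_, fun i => ?_⟩
  · rw [h3, abs_le]; omega
  · rw [h3]
    have := hm i
    generalize (S + 11) / 23 = q
    push_cast
    linarith

theorem no_eps (h : Core ρ B a L u d) (hu : B u e = 0)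
    (he : ∀ k, B e (ρ (a k) e) = dl 0 k - 1 / 23) (hr : e - ρ (a 1) e ∈ L) : False := by
  classical
  have hd := h.dq
  set r := e - ρ (a 1) e with hrdef
  have hee : B e e = 22 / 23 := by
    have := he 0
    rw [h.cyc.app0] at this
    rw [this]; simp [dl]; norm_num
  have hr2 : B r r = 2 := by
    rw [hrdef, h.pd.norm_sub, h.ctx.inv, hee, he, dl, if_neg (by decide)]; norm_num
  have hrne : r ≠ 0 := by rintro h0; rw [h0] at hr2; simp at hr2
  have hd2 : (2 : ℤ) ≤ d := by exact_mod_cast Nat.le_of_dvd h.dpos h.deven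
  -- coordinates of roots
  have root : ∀ x ∈ L, B x x = 2 → ∃ (n : ZMod 23 → ℤ) (k : ℤ), B u x = k ∧
      (∀ i, B (ρ (a i) e) x = n i - (∑ k, n k : ℤ) / 23) ∧
      ((k = 0 ∧ ∑ k, n k = 0) ∨ (k * k * d = 24 ∧ (∑ k, n k = 1 ∨ ∑ k, n k = -1)) ∨
        (k * k * d = 4 ∧ (∑ k, n k = 2 ∨ ∑ k, n k = -2))) := by
    intro x hx hx2
    obtain ⟨n, hn1, hn⟩ := h.coords hu (y := x) fun k => h.int (h.inv _ _ hr) x hx
    obtain ⟨k, hk⟩ := memZ.1 (h.udual x hx)
    refine ⟨n, k, hk.symm, hn, ar_norm _ _ _ _ (abs_sum_le n) hn1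
      (Int.natCast_dvd_natCast.2 h.deven) (by omega)
      (fun h0 => h.nd23 (Int.natCast_dvd_natCast.1 h0)) ?_⟩
    have h1 := h.parseval hu he hn hn
    rw [hx2, ← hk] at h1
    have : (23 : ℚ) * (∑ i, n i * n i : ℤ) - (∑ k, n k : ℤ) * (∑ k, n k : ℤ) + k * k * d = 46 := by
      linarith
    exact_mod_cast this
  obtain ⟨g0, hg0⟩ := h.ctx.exists_ip hrne h.u_ne
  set x0 := ρ g0 r with hx0
  have hx0L : x0 ∈ L := h.inv _ _ hr
  obtain ⟨n0, k0, hk0, hn0, hc0⟩ := root x0 hx0L (by rw [hx0, h.ctx.inv, hr2])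
  have hk0ne : k0 ≠ 0 := by
    rintro rfl
    apply hg0
    rw [h.pd.symm, hk0]; simp
  have hk0q : (k0 : ℚ) ≠ 0 := by exact_mod_cast hk0ne
  replace hc0 := hc0.resolve_left fun h0 => hk0ne h0.1
  set s0 := ∑ k, n0 k with hs0
  set μ : ℚ := s0 / (23 * k0) with hμ
  set z0 := e + μ • u with hz0
  have hzr : ∀ x ∈ L, B x x = 2 → B z0 x ∈ Z := by
    intro x hx hx2
    obtain ⟨n, k, hk, hn, hc⟩ := root x hx hx2
    have h1 : (∑ k, n k) * k0 = s0 * k := by
      rcases hc with hc | hc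
      · rw [hc.1, hc.2]; simp
      · obtain ⟨T, hT⟩ := memZ.1 (h.int hx x0 hx0L)
        rw [h.parseval hu he hn hn0, hk, hk0] at hT
        refine ar_root d k k0 _ s0 (T - ∑ i, n i * n0 i) hd2 hc hc0 ?_
        have : (d : ℚ) * k * k0 - (∑ k, n k : ℤ) * s0 = 23 * (T - (∑ i, n i * n0 i : ℤ)) := by
          linarith
        exact_mod_cast this
    have h2 : ((∑ k, n k : ℤ) : ℚ) * k0 = s0 * k := by exact_mod_cast h1
    have h3 := hn 0
    rw [h.cyc.app0] at h3
    refine memZ.2 ⟨n 0, ?_⟩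
    rw [hz0, map_add, map_smul, LinearMap.add_apply, LinearMap.smul_apply, h3, hk, hμ, smul_eq_mul]
    field_simp
    linarith
  have hnz : B z0 z0 = 22 / 23 + μ * μ * (23 / d) := by
    rw [hz0, h.pd.norm_add, hee]
    simp only [map_smul, LinearMap.smul_apply, smul_eq_mul, h.norm, h.pd.symm e u, hu]
    ring
  have hμle : μ * μ * (23 / d) ≤ 1 / 23 := by
    have h1 : s0 * s0 ≤ k0 * k0 * d := by
      rcases hc0 with ⟨h1, h2 | h2⟩ | ⟨h1, h2 | h2⟩ <;> rw [h1, h2] <;> norm_num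
    have h2 : (s0 : ℚ) * s0 ≤ k0 * k0 * d := by exact_mod_cast h1
    have h3 : (0 : ℚ) < k0 * k0 := mul_self_pos.2 hk0q
    have h4 : μ * μ * (23 / d) = (s0 * s0) / (k0 * k0 * d) / 23 := by rw [hμ]; field_simp
    rw [h4]
    exact div_le_div_of_nonneg_right ((div_le_one (by positivity)).2 h2) (by norm_num)
  have hsq : ∀ c c' : ℚ, c * c * (23 / d) = c' * c' * (23 / d) → c = c' ∨ c = -c' :=
    fun c c' h0 => mul_self_eq_mul_self_iff.1 (mul_right_cancel₀ (by positivity) h0)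
  -- the shape of the images of `z0`
  have shape : ∀ z, B z z = B z0 z0 → (∀ x ∈ L, B x x = 2 → B z x ∈ Z) →
      (∃ c : ℚ, z = c • u) ∨ ∃ i, z = ρ (a i) e + μ • u ∨ -z = ρ (a i) e + μ • u := by
    have one : ∀ z, B z z = B z0 z0 → (∀ x ∈ L, B x x = 2 → B z x ∈ Z) → ∀ i, ∀ c : ℚ,
        z = ρ (a i) e + c • u → z = ρ (a i) e + μ • u := by
      intro z hz hzi i c hc
      have h1 : B z z = 22 / 23 + c * c * (23 / d) := by
        rw [hc, h.pd.norm_add, h.ctx.inv, hee]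
        simp only [map_smul, LinearMap.smul_apply, smul_eq_mul, h.norm, h.pd.symm _ u, h.ip_a, hu]
        ring
      rcases hsq c μ (by linarith) with h2 | h2
      · rw [hc, h2]
      · exfalso
        obtain ⟨T, hT⟩ := memZ.1 (hzi x0 hx0L (by rw [hx0, h.ctx.inv, hr2]))
        rw [hc, map_add, map_smul, LinearMap.add_apply, LinearMap.smul_apply, hn0, hk0, h2, hμ,
          smul_eq_mul] at hT
        have h3 : (23 : ℚ) * T = 23 * n0 i - 2 * s0 := by
          rw [hT]; field_simp; ring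
        have h4 : 23 * T = 23 * n0 i - 2 * s0 := by exact_mod_cast h3
        rcases hc0 with ⟨-, h5 | h5⟩ | ⟨-, h5 | h5⟩ <;> omega
    intro z hz hzi
    obtain ⟨n, hn1, hn⟩ := h.coords hu (y := z) fun k => by
      rw [h.pd.symm]
      exact hzi _ (h.inv _ _ hr) (by rw [h.ctx.inv, hr2])
    have h1 := h.parseval hu he hn hn
    have h2 : 0 ≤ (d : ℚ) / 23 * B u z * B u z := by
      rw [mul_assoc]; exact mul_nonneg (by positivity) (mul_self_nonneg _)
    have h3 : (23 : ℚ) * (∑ i, n i * n i : ℤ) - (∑ k, n k : ℤ) * (∑ k, n k : ℤ) ≤ 23 := by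
      linarith
    have h4 : 23 * (∑ i, n i * n i) - (∑ k, n k) * (∑ k, n k) ≤ 23 := by exact_mod_cast h3
    have h5 := abs_sum_le n
    have h6 : ∑ i, n i * n i ≤ 1 := by
      obtain ⟨a1, a2⟩ := abs_le.1 h5
      obtain ⟨a3, a4⟩ := abs_le.1 hn1
      generalize ∑ i, n i * n i = q at *
      generalize ∑ i, n i = s at *
      interval_cases s <;> omega
    have h7 : z = ∑ i, (n i : ℚ) • ρ (a i) e + ((d : ℚ) / 23 * B u z) • u := by
      conv_lhs => rw [h.expand hu he z]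
      simp only [hn, sub_smul, sum_sub_distrib, ← Finset.smul_sum, h.eps_sum hu, smul_zero,
        sub_zero]
    by_cases h8 : ∃ i, n i ≠ 0
    · obtain ⟨i, hi⟩ := h8
      right
      have h9 : ∀ k, k ≠ i → n k = 0 := by
        intro k hk
        have : ∑ j ∈ ({i, k} : Finset (ZMod 23)), n j * n j ≤ ∑ j, n j * n j :=
          Finset.sum_le_sum_of_subset_of_nonneg (subset_univ _) fun j _ _ => mul_self_nonneg _
        rw [sum_pair hk.symm] at this
        have := mul_self_pos.2 hi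
        exact mul_self_eq_zero.1 (le_antisymm (by omega) (mul_self_nonneg _))
      rw [Finset.sum_eq_single i (fun k _ hk => by rw [h9 k hk]; simp) (by simp)] at h6 h7
      have h10 : n i = 1 ∨ n i = -1 := by
        have b1 : -2 < n i := by nlinarith
        have b2 : n i < 2 := by nlinarith
        omega
      rcases h10 with h10 | h10
      · exact ⟨i, Or.inl (one z hz hzi i _ (by rw [h10] at h7; simpa using h7))⟩
      · refine ⟨i, Or.inr (one (-z) (by simpa using hz) (fun x hx hx2 => by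
          simpa using neg_mem (hzi x hx hx2)) i (-((d : ℚ) / 23 * B u z)) ?_)⟩
        rw [h10] at h7
        conv_lhs => rw [h7]
        push_cast
        module
    · push Not at h8
      left
      exact ⟨_, by simpa [h8] using h7⟩
  obtain ⟨w, hw⟩ : ∃ w : V, ∀ g, ∀ c : ℚ, ρ g z0 = c • u → ρ g z0 = w ∨ -ρ g z0 = w := by
    by_cases h1 : ∃ g, ∃ c : ℚ, ρ g z0 = c • u
    · obtain ⟨g1, c1, hc1⟩ := h1
      refine ⟨c1 • u, fun g c hc => ?_⟩
      have h2 : B (ρ g z0) (ρ g z0) = B (ρ g1 z0) (ρ g1 z0) := by rw [h.ctx.inv, h.ctx.inv]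
      rw [hc, hc1] at h2
      simp only [map_smul, LinearMap.smul_apply, smul_eq_mul, h.norm, ← mul_assoc] at h2
      rcases hsq _ _ h2 with h3 | h3
      · left; rw [hc, h3]
      · right; rw [hc, h3]; simp
    · exact ⟨0, fun g c hc => absurd ⟨g, c, hc⟩ h1⟩
  refine h.ctx.gset h.cyc (z := z0) ?_ (insert w (univ.image fun i => ρ (a i) e + μ • u)) ?_
    fun g => ?_
  · rw [hz0, map_add, map_smul, h.ufix]
    intro h0
    exact hrne (sub_eq_zero.2 (add_right_cancel h0).symm)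
  · refine (card_insert_le _ _).trans ?_
    have := card_image_le (s := univ) (f := fun i => ρ (a i) e + μ • u)
    rw [card_univ, ZMod.card] at this
    omega
  · rcases shape (ρ g z0) (h.ctx.inv _ _ _) (fun x hx hx2 => by
      rw [h.ctx.adj]
      exact hzr _ (h.inv _ _ hx) (by rw [h.ctx.inv, hx2])) with ⟨c, hc⟩ | ⟨i, hi | hi⟩
    · rcases hw g c hc with h1 | h1
      · left; rw [h1]; exact mem_insert_self _ _
      · right; rw [h1]; exact mem_insert_self _ _
    · left; exact mem_insert_of_mem (mem_image.2 ⟨i, mem_univ _, hi.symm⟩)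
    · right; exact mem_insert_of_mem (mem_image.2 ⟨i, mem_univ _, hi.symm⟩)

/-- No root is orthogonal to the fixed vector. -/
theorem no_root (h : Core ρ B a L u d) {r : V} (h1 : r ∈ L) (h2 : B u r = 0) : B r r ≠ 2 := by
  intro h3
  obtain ⟨j, hj, r, hr, hr0, ht⟩ := h.exists_affine h1 h2 h3
  obtain ⟨e, hu, her, he⟩ := (h.mul hj).exists_eps hr0 ht
  exact (h.mul hj).no_eps hu he (her ▸ hr)

end Core

end Cfsg.Agent.F23
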