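import Mathlib
import Cfsg.Agent.F23.Root2

/-! The lattice is rootless and its discriminant is 2, 4 or 6. -/

set_option autoImplicit false

namespace Cfsg.Agent.F23

open Module Finset

variable {G : Type*} [Group G] {V : Type*} [AddCommGroup V] [Module ℚ V] [Fintype G]
  {ρ : G →* Module.End ℚ V} {B : LinearMap.BilinForm ℚ V} {a : ZMod 23 → G}
  {L : Submodule ℤ V} {u : V} {d : ℕ}

namespace Core

theorem dinv (h : Core ρ B a L u d) : Inv ρ (dual B L) := h.ctx.dual_inv h.inv

theorem cop (h : Core ρ B a L u d) {m : ℤ} (hm : (d : ℤ) ∣ 23 * m) : (d : ℤ) ∣ m := by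
  refine IsCoprime.dvd_of_dvd_mul_left (IsCoprime.symm ?_) hm
  rw [(show Prime (23 : ℤ) by norm_num).coprime_iff_not_dvd]
  exact fun h2 => h.nd23 (Int.natCast_dvd_natCast.1 h2)

theorem min4 (h : Core ρ B a L u d) {x : V} (hx : x ∈ L) (h0 : B u x = 0) (hne : x ≠ 0) :
    4 ≤ B x x := by
  obtain ⟨k, hk⟩ := h.even x hx
  have h1 := h.pd.pos x hne
  have h2 := h.no_root hx h0
  rw [hk] at h1 h2 ⊢
  have h3 : 0 < 2 * k := by exact_mod_cast h1
  have h4 : 2 * k ≠ 2 := by exact_mod_cast h2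
  exact_mod_cast (by omega : 4 ≤ 2 * k)

theorem ip_zsmul (h : Core ρ B a L u d) (m : ℤ) : B u (m • u) = m * (23 / d) := by
  rw [map_zsmul, h.norm, zsmul_eq_mul]

theorem mem_of_int (h : Core ρ B a L u d) {z : V} (hz : z ∈ dual B L) (h0 : B u z ∈ Z) : z ∈ L := by
  obtain ⟨m, hm⟩ := h.gen z hz
  obtain ⟨t, ht⟩ := memZ.1 (sub_mem h0 (h.udual _ hm))
  rw [map_sub, sub_sub_cancel, h.ip_zsmul] at ht
  have hd := h.dq
  have h1 : 23 * m = d * t := by
    have : (23 : ℚ) * m = d * t := by rw [ht]; field_simp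
    exact_mod_cast this
  have := add_mem hm ((h.ord m).2 (h.cop ⟨t, h1⟩))
  rwa [sub_add_cancel] at this

theorem perp_bound (h : Core ρ B a L u d) {z : V} (hz : z ∈ dual B L) :
    (∃ m : ℤ, z = m • u) ∨ 44 / 23 + (d : ℚ) / 23 * (B u z) ^ 2 ≤ B z z := by
  classical
  by_cases hf : ρ (a 1) z = z
  · exact Or.inl (h.fixdual z hz (h.cyc.fix_all one_ne_zero hf))
  right
  have hd := h.dq
  have h1 : ∀ i, (if i = 0 then 0 else 4) ≤ 2 * B z z - 2 * B z (ρ (a i) z) := by
    intro i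
    split_ifs with hi
    · rw [hi, h.cyc.app0]; simp
    · have h2 : B u (z - ρ (a i) z) = 0 := by rw [map_sub, h.ip_a, sub_self]
      have h3 := h.min4 (h.mem_of_int (sub_mem hz (h.dinv _ _ hz)) (by rw [h2]; exact zero_mem _)) h2
        (fun h0 => hf (h.cyc.fix_all hi (sub_eq_zero.1 h0).symm 1))
      rw [h.pd.norm_sub, h.ctx.inv] at h3
      linarith
  have h2 := sum_le_sum fun i (_ : i ∈ univ) => h1 i
  have h3 : ∑ i : ZMod 23, (if i = 0 then (0 : ℚ) else 4) = 88 := by
    have : ∑ i : ZMod 23, (if i = 0 then (0 : ℤ) else 4) = 88 := by decide +kernel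
    exact_mod_cast this
  obtain ⟨c, hc⟩ := h.fix _ fun i => h.cyc.a_Nm (ρ := ρ) i z
  have h4 := h.ip_Nm z
  rw [hc, map_smul, h.norm, smul_eq_mul] at h4
  have h5 : c = d * B u z := by field_simp at h4; linarith
  rw [h3, sum_sub_distrib, sum_const, ← Finset.mul_sum, ← map_sum, ← Nm_apply, hc,
    map_smul, h.pd.symm z u, h5] at h2
  simp only [card_univ, ZMod.card, nsmul_eq_mul, smul_eq_mul] at h2
  push_cast at h2
  linarith

theorem cs (h : Core ρ B a L u d) (s : V) : (d : ℚ) / 23 * (B u s) ^ 2 ≤ B s s := by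
  have := h.pd.nonneg (s - ((d : ℚ) / 23 * B u s) • u)
  rw [h.pd.norm_sub] at this
  simp only [map_smul, LinearMap.smul_apply, smul_eq_mul, h.norm, h.pd.symm s u] at this
  have hd := h.dq
  have e : (d : ℚ) / 23 * B u s * (d / 23 * B u s * (23 / d)) = d / 23 * (B u s) ^ 2 := by
    field_simp
  rw [e] at this
  linarith

theorem few (h : Core ρ B a L u d) (c : ℚ) (S : Finset V)
    (hS : ∀ z ∈ S, z ∈ dual B L ∧ B u z = c ∧ B z z = 44 / 23 + (d : ℚ) / 23 * c ^ 2) :
    S.card ≤ 23 := by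
  classical
  set K := (d : ℚ) / 23 * c ^ 2 with hK
  have h1 : ∀ z ∈ S, ∀ z' ∈ S, B z z' ≤ (K - 2 / 23) + if z = z' then 2 else 0 := by
    intro z hz z' hz'
    split_ifs with he
    · rw [← he, (hS z hz).2.2]; linarith
    · have h2 : B u (z - z') = 0 := by rw [map_sub, (hS z hz).2.1, (hS z' hz').2.1, sub_self]
      have h3 := h.min4 (h.mem_of_int (sub_mem (hS z hz).1 (hS z' hz').1)
        (by rw [h2]; exact zero_mem _)) h2 (sub_ne_zero.2 he)
      rw [h.pd.norm_sub, (hS z hz).2.2, (hS z' hz').2.2] at h3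
      linarith
  have h2 := h.cs (∑ z ∈ S, z)
  have h3 : B u (∑ z ∈ S, z) = S.card * c := by
    rw [map_sum, sum_congr rfl fun z hz => (hS z hz).2.1]; simp
  have h4 : B (∑ z ∈ S, z) (∑ z ∈ S, z) ≤ S.card * (S.card * (K - 2 / 23) + 2) := by
    simp only [map_sum, LinearMap.sum_apply]
    refine (sum_le_sum fun z' hz' => sum_le_sum fun z hz => h1 z hz z' hz').trans (le_of_eq ?_)
    rw [sum_congr rfl fun z' hz' => by rw [sum_add_distrib, sum_ite_eq', if_pos hz']]
    simp only [sum_const, nsmul_eq_mul]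
  rw [h3, mul_pow, mul_left_comm, ← hK] at h2
  by_contra h5
  have h6 : (24 : ℚ) ≤ S.card := by exact_mod_cast (by omega : 24 ≤ S.card)
  nlinarith

theorem few_lines (h : Core ρ B a L u d) (c : ℚ) {z0 : V} (hz : z0 ∈ dual B L)
    (hf : ρ (a 1) z0 ≠ z0) (hn : B z0 z0 = 44 / 23 + (d : ℚ) / 23 * c ^ 2)
    (hg : ∀ g, (ρ g z0 = u ∨ ρ g z0 = -u) ∨ B u (ρ g z0) = c ∨ B u (ρ g z0) = -c) : False := by
  classical
  let S := ((univ.image fun g => ρ g z0) ∪ (univ.image fun g => -ρ g z0)).filter (B u · = c)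
  have hS : S.card ≤ 23 := h.few c S fun z hz' => by
    obtain ⟨h1, h2⟩ := mem_filter.1 hz'
    rcases mem_union.1 h1 with h3 | h3 <;> obtain ⟨g, -, rfl⟩ := mem_image.1 h3
    · exact ⟨h.dinv _ _ hz, h2, by rw [h.ctx.inv, hn]⟩
    · exact ⟨neg_mem (h.dinv _ _ hz), h2, by simp [h.ctx.inv, hn]⟩
  refine h.ctx.gset h.cyc hf (insert u S) ((card_insert_le _ _).trans (by omega)) fun g => ?_
  rcases hg g with (h1 | h1) | h1 | h1
  · left; rw [h1]; exact mem_insert_self _ _
  · right; rw [h1, neg_neg]; exact mem_insert_self _ _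
  · left
    exact mem_insert_of_mem (mem_filter.2 ⟨mem_union_left _ (mem_image_of_mem _ (mem_univ g)), h1⟩)
  · right
    exact mem_insert_of_mem (mem_filter.2 ⟨mem_union_right _ (mem_image_of_mem _ (mem_univ g)),
      by simp [h1]⟩)

theorem norm_zsmul (h : Core ρ B a L u d) (m : ℤ) : B (m • u) (m • u) = m * m * 23 / d := by
  rw [zsmul_eq]
  simp only [map_smul, LinearMap.smul_apply, smul_eq_mul, h.norm]
  ring

/-- The lattice has no roots. -/
theorem rootless (h : Core ρ B a L u d) {x : V} (hx : x ∈ L) : B x x ≠ 2 := by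
  intro h2
  have hd := h.dq
  have hd2 : (2 : ℤ) ≤ d := by exact_mod_cast Nat.le_of_dvd h.dpos h.deven
  have hnu : ∀ x, B x x = 2 → ∀ m : ℤ, x ≠ m • u := by
    rintro _ h2 m rfl
    rw [h.norm_zsmul] at h2
    have h3 : m * m * 23 = 2 * d := by
      have : (m : ℚ) * m * 23 = 2 * d := by rw [← h2]; field_simp
      exact_mod_cast this
    exact h.nd23 (by omega)
  have key : ∀ x ∈ L, B x x = 2 → d = 2 ∧ (B u x = 1 ∨ B u x = -1) := by
    intro x hx h2
    obtain ⟨k, hk⟩ := memZ.1 (h.udual x hx)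
    have hk0 : k ≠ 0 := by
      rintro rfl
      exact h.no_root hx (by simp [← hk]) h2
    have h3 := (h.perp_bound (h.int hx)).resolve_left fun ⟨m, hm⟩ => hnu x h2 m hm
    rw [h2, ← hk] at h3
    have h4 : d * (k * k) ≤ 2 := by
      have : (d : ℚ) * (k * k) ≤ 2 := by linarith
      exact_mod_cast this
    have h5 := mul_self_pos.2 hk0
    have h6 : k * k = 1 := by nlinarith
    rw [h6] at h4
    refine ⟨by omega, ?_⟩
    rw [← hk]
    rcases mul_self_eq_one_iff.1 h6 with h7 | h7 <;> simp [h7]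
  refine h.few_lines 1 (h.int hx) (fun hf => ?_) (by rw [h2, (key x hx h2).1]; norm_num) fun g =>
    Or.inr (key _ (h.inv g x hx) (by rw [h.ctx.inv, h2])).2
  obtain ⟨m, hm⟩ := h.fixdual x (h.int hx) (h.cyc.fix_all one_ne_zero hf)
  exact hnu x h2 m hm

theorem orbit (h : Core ρ B a L u d) (g : G) : ∃ m t : ℤ, ρ g u - m • u ∈ L ∧
    (2 * d : ℤ) ∣ m * m - 1 ∧ d * B u (ρ g u) = (d * t + 23 * m : ℤ) := by
  have hd := h.dq
  obtain ⟨m, hm⟩ := h.gen _ (h.dinv g u h.udual)
  obtain ⟨t, ht⟩ := memZ.1 (h.udual _ hm)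
  obtain ⟨k, hk⟩ := h.even _ hm
  have h1 : B u (ρ g u) = t + m * (23 / d) := by
    rw [ht, map_sub, h.ip_zsmul]; ring
  refine ⟨m, t, hm, ?_, by rw [h1]; push_cast; field_simp⟩
  rw [h.pd.norm_sub, h.ctx.inv, h.norm, h.norm_zsmul, map_zsmul, h.pd.symm _ u, h1,
    zsmul_eq_mul] at hk
  have h2 : 23 * (m * m - 1) = 2 * d * (-k - m * t) := by
    have : (23 : ℚ) * (m * m - 1) = 2 * d * (-k - m * t) := by
      field_simp at hk
      linarith
    exact_mod_cast this
  refine IsCoprime.dvd_of_dvd_mul_left (IsCoprime.symm ?_) ⟨_, h2⟩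
  rw [(show Prime (23 : ℤ) by norm_num).coprime_iff_not_dvd]
  intro h3
  exact h.nd23 (by omega)

theorem orbit_bound (h : Core ρ B a L u d) {z : V} (hz : z ∈ dual B L) (hn : B z z = B u u)
    {j : ℤ} (hj : d * B u z = j) : (z = u ∨ z = -u) ∨ 44 * d + j * j ≤ 529 := by
  have hd := h.dq
  rcases h.perp_bound hz with ⟨m, hm⟩ | h1
  · left
    rw [hm, h.norm_zsmul, h.norm] at hn
    have h2 : m * m = 1 := by
      have : (m : ℚ) * m = 1 := by field_simp at hn; linarith
      exact_mod_cast this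
    rcases mul_self_eq_one_iff.1 h2 with h3 | h3 <;> simp [hm, h3]
  · right
    rw [hn, h.norm] at h1
    have : 44 * (d : ℚ) + j * j ≤ 529 := by
      rw [← hj]
      have h2 := mul_le_mul_of_nonneg_left h1 (show (0 : ℚ) ≤ 23 * d by positivity)
      field_simp at h2 ⊢
      linarith
    exact_mod_cast this

theorem exists_off (h : Core ρ B a L u d) : ∃ g, ¬ (ρ g u = u ∨ ρ g u = -u) := by
  by_contra hne
  push Not at hne
  refine h.ctx.irr.no_line h.ctx.dim h.u_ne fun g => ?_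
  rcases hne g with h1 | h1
  · exact ⟨1, by simpa using h1⟩
  · exact ⟨-1, by simpa using h1⟩

theorem d_le (h : Core ρ B a L u d) : d ≤ 12 := by
  obtain ⟨g, hg⟩ := h.exists_off
  obtain ⟨m, t, -, -, hj⟩ := h.orbit g
  have := (h.orbit_bound (h.dinv g u h.udual) (h.ctx.inv _ _ _) hj).resolve_left hg
  have h2 := mul_self_nonneg (d * t + 23 * m)
  omega

theorem ne12 (h : Core ρ B a L u d) : d ≠ 12 := by
  rintro rfl
  obtain ⟨g0, hg0⟩ := h.exists_off
  refine h.few_lines (1 / 12) (h.dinv g0 u h.udual) (fun hf => hg0 ?_)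
    (by rw [h.ctx.inv, h.norm]; norm_num) fun g => ?_
  · obtain ⟨m, hm⟩ := h.fixdual _ (h.dinv g0 u h.udual) (h.cyc.fix_all one_ne_zero hf)
    have hn := h.ctx.inv g0 u u
    rw [hm, h.norm_zsmul, h.norm] at hn
    have h2 : m * m = 1 := by
      have : (m : ℚ) * m = 1 := by field_simp at hn; linarith
      exact_mod_cast this
    rcases mul_self_eq_one_iff.1 h2 with h3 | h3 <;> simp [hm, h3]
  · rw [← rho_mul]
    obtain ⟨m, t, -, hm, hj⟩ := h.orbit (g * g0)
    refine (h.orbit_bound (h.dinv _ u h.udual) (h.ctx.inv _ _ _) hj).imp_right fun h1 => ?_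
    have h2 : m % 2 = 1 := by
      rcases Int.emod_two_eq_zero_or_one m with h3 | h3
      · exfalso
        obtain ⟨k, rfl⟩ := Int.dvd_of_emod_eq_zero h3
        have : 2 * k * (2 * k) = 4 * (k * k) := by ring
        omega
      · exact h3
    generalize hJ : ((12 : ℕ) : ℤ) * t + 23 * m = j at *
    have h3 : j = 1 ∨ j = -1 := by
      push_cast at h1
      have b1 : -2 < j := by nlinarith
      have b2 : j < 2 := by nlinarith
      omega
    rcases h3 with h3 | h3 <;> rw [h3] at hj <;> push_cast at hj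
    · left; linarith
    · right; linarith

theorem exists_eps_hom (h : Core ρ B a L u d) (hd : d = 4 ∨ d = 6 ∨ d = 10) :
    ∃ ε : G →* ℤˣ, ∀ g, ((ε g : ℤ)) • ρ g u - u ∈ L := by
  have h1 : ∀ g, ∃ e : ℤˣ, (e : ℤ) • ρ g u - u ∈ L := by
    intro g
    obtain ⟨m, t, hm, hdm, -⟩ := h.orbit g
    have h2 : (d : ℤ) ∣ m - 1 ∨ (d : ℤ) ∣ m + 1 := by
      have e : ∀ n : ℤ, n ∣ m * m - 1 → n ∣ (m % n) * (m % n) - 1 := fun n hn => by
        have : m % n * (m % n) - 1 = m * m - 1 - n * (m / n * (2 * m - n * (m / n))) := by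
          rw [Int.emod_def]; ring
        rw [this]
        exact dvd_sub hn (Dvd.intro _ rfl)
      have h3 := e _ hdm
      rcases hd with rfl | rfl | rfl <;> push_cast at h3 ⊢
      · have b1 := Int.emod_nonneg m (show (8 : ℤ) ≠ 0 by norm_num)
        have b2 := Int.emod_lt_of_pos m (show (0 : ℤ) < 8 by norm_num)
        generalize hr : m % 8 = r at *
        interval_cases r <;> omega
      · have b1 := Int.emod_nonneg m (show (12 : ℤ) ≠ 0 by norm_num)
        have b2 := Int.emod_lt_of_pos m (show (0 : ℤ) < 12 by norm_num)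
        generalize hr : m % 12 = r at *
        interval_cases r <;> omega
      · have b1 := Int.emod_nonneg m (show (20 : ℤ) ≠ 0 by norm_num)
        have b2 := Int.emod_lt_of_pos m (show (0 : ℤ) < 20 by norm_num)
        generalize hr : m % 20 = r at *
        interval_cases r <;> omega
    rcases h2 with h2 | h2
    · refine ⟨1, ?_⟩
      convert add_mem hm ((h.ord _).2 h2) using 1
      simp only [Units.val_one]
      module
    · refine ⟨-1, ?_⟩
      convert neg_mem (add_mem hm ((h.ord _).2 h2)) using 1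
      simp only [Units.val_neg, Units.val_one]
      module
  choose ε hε using h1
  have uniq : ∀ (x : V) (e e' : ℤˣ), (e : ℤ) • x - u ∈ L → (e' : ℤ) • x - u ∈ L → e = e' := by
    intro x e e' h1 h2
    by_contra hne
    have h3 : (2 : ℤ) • u ∈ L := by
      have := neg_mem (add_mem h1 h2)
      rw [Int.units_ne_iff_eq_neg.1 hne] at this
      convert this using 1
      simp only [Units.val_neg]
      module
    have := Int.le_of_dvd (by norm_num) ((h.ord _).1 h3)
    omega
  refine ⟨MonoidHom.mk' ε fun g k => uniq _ _ _ (hε (g * k)) ?_, hε⟩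
  have := add_mem (L.smul_mem (ε g : ℤ) (h.inv g _ (hε k))) (hε g)
  convert this using 1
  simp only [rho_mul, map_sub, map_zsmul, Units.val_mul]
  module

end Core

/-- The twisted representation. -/
def tw (ρ : G →* Module.End ℚ V) (ε : G →* ℤˣ) : G →* Module.End ℚ V where
  toFun g := (ε g : ℤ) • ρ g
  map_one' := by simp
  map_mul' g k := by rw [map_mul, map_mul, Units.val_mul, smul_mul_smul_comm]

omit [Fintype G] in
theorem tw_apply (ε : G →* ℤˣ) (g : G) (x : V) : tw ρ ε g x = (ε g : ℤ) • ρ g x := rfl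

theorem Ctx.tw_inv (h : Ctx ρ B) (ε : G →* ℤˣ) (g : G) (x y : V) :
    B (tw ρ ε g x) (tw ρ ε g y) = B x y := by
  simp only [tw_apply, map_zsmul, LinearMap.smul_apply, h.inv, smul_smul]
  rw [Int.isUnit_mul_self (ε g).isUnit, one_smul]

theorem Core.ne10 (h : Core ρ B a L u d) : d ≠ 10 := by
  rintro rfl
  obtain ⟨ε, hε⟩ := h.exists_eps_hom (by simp)
  have hz : ∀ g, tw ρ ε g u ∈ dual B L := fun g =>
    Submodule.smul_mem _ _ (h.dinv g u h.udual)
  have hj : ∀ g, ∃ j : ℤ, ((10 : ℕ) : ℚ) * B u (tw ρ ε g u) = j ∧ (j = 23 ∨ j = 3 ∨ j = -7) := by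
    intro g
    obtain ⟨t, ht⟩ := memZ.1 (h.udual _ (hε g))
    rw [map_sub, ← tw_apply, h.norm] at ht
    have h1 : ((10 : ℕ) : ℚ) * B u (tw ρ ε g u) = (10 * t + 23 : ℤ) := by
      push_cast at ht ⊢; linarith
    refine ⟨_, h1, ?_⟩
    rcases h.orbit_bound (hz g) (h.ctx.tw_inv _ _ _ _) h1 with (h2 | h2) | h2
    · rw [h2, h.norm] at h1
      have : (23 : ℤ) = 10 * t + 23 := by
        have : (23 : ℚ) = 10 * t + 23 := by push_cast at h1; linarith
        exact_mod_cast this
      omega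
    · rw [h2, map_neg, h.norm] at h1
      have : (-23 : ℤ) = 10 * t + 23 := by
        have : (-23 : ℚ) = 10 * t + 23 := by push_cast at h1; linarith
        exact_mod_cast this
      omega
    · push_cast at h2
      have b1 : -4 < t := by nlinarith
      have b2 : t < -1 := by nlinarith
      omega
  set β : G → ℚ := fun g => B u (tw ρ ε g u) with hβ
  have e1 : ∑ g, β g = 0 := by
    have h1 : ∑ g, tw ρ ε g u = 0 := by
      by_contra h0
      refine h.ctx.irr.no_line h.ctx.dim h0 fun k => ⟨(ε k : ℤ), ?_⟩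
      have h2 : tw ρ ε k (∑ g, tw ρ ε g u) = ∑ g, tw ρ ε g u := by
        rw [map_sum]
        simp only [← rho_mul]
        exact Fintype.sum_equiv (Equiv.mulLeft k) _ _ fun _ => rfl
      conv_rhs => rw [← h2, tw_apply]
      rw [← zsmul_eq, smul_smul, Int.isUnit_mul_self (ε k).isUnit, one_smul]
    rw [hβ, ← map_sum, h1, map_zero]
  have e2 : ∑ g, β g ^ 2 = Fintype.card G * (23 / 100) := by
    have := h.ctx.design u
    rw [h.norm] at this
    have h1 : ∀ g, β g ^ 2 = (B (ρ g u) u) ^ 2 := fun g => by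
      simp only [hβ, tw_apply, map_zsmul, h.pd.symm u]
      rcases Int.units_eq_one_or (ε g) with h1 | h1 <;> simp [h1]
    simp only [h1, this]
    push_cast; ring
  have e3 : 0 ≤ ∑ g, β g ^ 3 := by
    have := h.ctx.fd
    have h1 := h.pd.cube_nonneg (fun g => tw ρ ε g u)
    have h2 : ∀ g, ∑ k, (B (tw ρ ε g u) (tw ρ ε k u)) ^ 3 = ∑ k, β k ^ 3 := fun g => by
      refine (Fintype.sum_equiv (Equiv.mulLeft g) _ _ fun k => ?_).symm
      simp only [hβ, Equiv.coe_mulLeft, rho_mul, h.ctx.tw_inv]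
    simp only [h2, sum_const, card_univ, nsmul_eq_mul] at h1
    exact nonneg_of_mul_nonneg_right h1 Ctx.card_pos
  have e4 : ∀ g, 1000 * β g ^ 3 = 1900 * β g ^ 2 + 1130 * β g - 483 := fun g => by
    obtain ⟨j, h1, h2⟩ := hj g
    have h3 : β g = j / 10 := by rw [← h1]; simp only [hβ]; push_cast; ring
    rw [h3]
    rcases h2 with rfl | rfl | rfl <;> norm_num
  have e5 := congrArg (fun f : G → ℚ => ∑ g, f g) (funext e4)
  simp only [sum_sub_distrib, sum_add_distrib, ← Finset.mul_sum, e1, e2, sum_const, card_univ,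
    nsmul_eq_mul] at e5
  have := Ctx.card_pos (G := G)
  linarith

theorem Core.d_cases (h : Core ρ B a L u d) : d = 2 ∨ d = 4 ∨ d = 6 := by
  have h1 := h.d_le
  have h2 := h.ne12
  have h3 := h.ne10
  have h4 := h.deven
  have h5 := h.nd8
  have h6 := h.dpos
  omega

end Cfsg.Agent.F23
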