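import Mathlib
import Cfsg.Agent.F23.Fin1

/-! The unimodular extension of rank 24 and the embedding into the Conway groups. -/

set_option autoImplicit false

namespace Cfsg.Agent.F23

open Module Finset

variable {G : Type*} [Group G] {V : Type*} [AddCommGroup V] [Module ℚ V]

theorem Lat.of_int {W : Type*} [AddCommGroup W] [Module ℚ W] [FiniteDimensional ℚ W]
    {B : LinearMap.BilinForm ℚ W} (h : PD B) {L M : Submodule ℤ W} (hL : Lat L) (h1 : L ≤ M)
    (h2 : M ≤ Cfsg.Agent.F23.dual B M) : Lat M :=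
  hL.between (hL.dual h) h1 (h2.trans (dual_anti h1))

theorem Lat.prod {L : Submodule ℤ V} (hL : Lat L) :
    Lat (L.prod (Submodule.span ℤ {(1 : ℚ)})) := by
  refine ⟨hL.fg.prod (Submodule.fg_span_singleton _), eq_top_iff.2 ?_⟩
  rintro ⟨v, q⟩ -
  obtain ⟨m, hm0, hm⟩ := hL.exists_nsmul v
  have hq : (m : ℚ) ≠ 0 := by exact_mod_cast hm0.ne'
  have : (v, q) = (m : ℚ)⁻¹ • (((m : ℤ) • v, 0) : V × ℚ) + q • ((0, 1) : V × ℚ) := by
    ext
    · simp [zsmul_eq, smul_smul, hq]
    · simp
  rw [this]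
  exact add_mem (Submodule.smul_mem _ _ (Submodule.subset_span ⟨hm, zero_mem _⟩))
    (Submodule.smul_mem _ _ (Submodule.subset_span ⟨zero_mem _, Submodule.subset_span rfl⟩))

/-- The extended form. -/
noncomputable def extB (B : LinearMap.BilinForm ℚ V) (d : ℕ) : LinearMap.BilinForm ℚ (V × ℚ) :=
  B.comp (LinearMap.fst ℚ V ℚ) (LinearMap.fst ℚ V ℚ) +
    (d : ℚ) • LinearMap.BilinForm.linMulLin (LinearMap.snd ℚ V ℚ) (LinearMap.snd ℚ V ℚ)

theorem extB_apply (B : LinearMap.BilinForm ℚ V) (d : ℕ) (p q : V × ℚ) :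
    extB B d p q = B p.1 q.1 + d * (p.2 * q.2) := by simp [extB]

/-- The extended lattice. -/
def lam (L : Submodule ℤ V) (u : V) (d : ℕ) : Submodule ℤ (V × ℚ) where
  carrier := {p | ∃ m : ℤ, p.1 - m • u ∈ L ∧ p.2 = m / d}
  add_mem' := by
    rintro p q ⟨m, h1, h2⟩ ⟨n, h3, h4⟩
    refine ⟨m + n, ?_, by rw [Prod.snd_add, h2, h4]; push_cast; ring⟩
    convert add_mem h1 h3 using 1
    rw [Prod.fst_add]; module
  zero_mem' := ⟨0, by simp, by simp⟩
  smul_mem' := by
    rintro r p ⟨m, h1, h2⟩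
    refine ⟨r * m, ?_, by rw [Prod.smul_snd, h2]; push_cast; ring⟩
    convert L.smul_mem r h1 using 1
    rw [Prod.smul_fst]; module

variable [Fintype G] {ρ : G →* Module.End ℚ V} {B : LinearMap.BilinForm ℚ V} {a : ZMod 23 → G}
  {L : Submodule ℤ V} {u : V} {d : ℕ}

namespace Core

theorem ext_pd (h : Core ρ B a L u d) : PD (extB B d) := by
  refine ⟨fun p q => by rw [extB_apply, extB_apply, h.pd.symm, mul_comm p.2], fun p hp => ?_⟩
  rw [extB_apply]
  have hd := h.dq
  by_cases h1 : p.1 = 0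
  · have h2 : p.2 ≠ 0 := fun h2 => hp (Prod.ext h1 h2)
    have := mul_self_pos.2 h2
    rw [h1]; simp only [map_zero, zero_add]; positivity
  · have := h.pd.pos _ h1
    have := mul_self_nonneg p.2
    positivity

theorem ext_dim (h : Core ρ B a L u d) : finrank ℚ (V × ℚ) = 24 := by
  have := h.ctx.fd
  rw [Module.finrank_prod, h.ctx.dim, Module.finrank_self]

theorem lam_dual (h : Core ρ B a L u d) {p : V × ℚ} (hp : p ∈ lam L u d) : p.1 ∈ dual B L := by
  obtain ⟨m, h1, -⟩ := hp
  have := add_mem (h.int h1) (Submodule.smul_mem _ m h.udual)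
  rwa [sub_add_cancel] at this

theorem w_mem (h : Core ρ B a L u d) : ((0, 1) : V × ℚ) ∈ lam L u d :=
  ⟨d, by simpa using (h.ord _).2 dvd_rfl, by simp [h.dq.ne']⟩

theorem lam_even (h : Core ρ B a L u d) : ∀ p ∈ lam L u d, ∃ k : ℤ, extB B d p p = 2 * k := by
  rintro p ⟨m, h1, h2⟩
  obtain ⟨e, he⟩ : ∃ e : ℤ, (12 : ℚ) = d * e := by
    rcases h.d_cases with rfl | rfl | rfl
    exacts [⟨6, by norm_num⟩, ⟨3, by norm_num⟩, ⟨2, by norm_num⟩]
  obtain ⟨k, hk⟩ := h.even _ h1
  obtain ⟨n, hn⟩ := memZ.1 (Submodule.smul_mem _ m h.udual _ h1)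
  refine ⟨k + n + m * m * e, ?_⟩
  have h3 : p.1 = m • u + (p.1 - m • u) := by abel
  have hd := h.dq
  have h4 : (e : ℚ) = 12 / d := by rw [he]; field_simp
  rw [extB_apply, h3, h.pd.norm_add, hk, ← hn, h.norm_zsmul, h2]
  push_cast
  rw [h4]
  field_simp
  ring

theorem lam_lat (h : Core ρ B a L u d) : Lat (lam L u d) := by
  have := h.ctx.fd
  refine h.lat.prod.of_int h.ext_pd ?_ (int_of_even h.ext_pd h.lam_even)
  rintro ⟨x, q⟩ ⟨hx, hq⟩
  obtain ⟨n, rfl⟩ := Submodule.mem_span_singleton.1 hq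
  have h1 : ((x, 0) : V × ℚ) ∈ lam L u d := ⟨0, by simpa using hx, by simp⟩
  convert add_mem h1 (Submodule.smul_mem _ n h.w_mem) using 1
  simp

theorem lam_self (h : Core ρ B a L u d) : dual (extB B d) (lam L u d) ≤ lam L u d := by
  intro p hp
  have hd := h.dq
  have h1 : p.1 ∈ dual B L := fun y hy => by
    simpa [extB_apply] using hp (y, 0) ⟨0, by simpa using hy, by simp⟩
  obtain ⟨m, hm⟩ := memZ.1 (hp _ h.w_mem)
  simp only [extB_apply, map_zero, mul_one, zero_add] at hm
  have h2 := hp (u, 1 / d) ⟨1, by simp, by simp⟩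
  refine ⟨m, h.mem_of_int (sub_mem h1 (Submodule.smul_mem _ _ h.udual)) ?_, by
    rw [hm]; field_simp⟩
  obtain ⟨e, he⟩ : ∃ e : ℤ, (24 : ℚ) = d * e := by
    rcases h.d_cases with rfl | rfl | rfl
    exacts [⟨12, by norm_num⟩, ⟨6, by norm_num⟩, ⟨4, by norm_num⟩]
  have h4 : (e : ℚ) = 24 / d := by rw [he]; field_simp
  convert sub_mem h2 (intZ (m * e)) using 1
  rw [map_sub, h.ip_zsmul, extB_apply, h.pd.symm u]
  push_cast
  rw [h4, hm]
  field_simp
  ring

theorem lam_root (h : Core ρ B a L u d) {p : V × ℚ} (hp : p ∈ lam L u d)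
    (h2 : extB B d p p = 2) : d = 2 ∧ (p = (0, 1) ∨ p = -(0, 1)) := by
  have hd := h.dq
  have hd6 : d ≤ 6 := by rcases h.d_cases with rfl | rfl | rfl <;> norm_num
  have hz := h.lam_dual hp
  obtain ⟨m, h1, hm⟩ := hp
  rw [extB_apply, hm] at h2
  rcases h.perp_bound hz with ⟨n, hn⟩ | h3
  · rw [hn, h.norm_zsmul] at h2
    have h3 : n * n * 23 + m * m = 2 * d := by
      have : (n : ℚ) * n * 23 + m * m = 2 * d := by rw [← h2]; field_simp
      exact_mod_cast this
    have h4 : n = 0 := by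
      have := mul_self_nonneg m
      by_contra h5
      have := mul_self_pos.2 h5
      omega
    rw [h4] at h3 hn
    have b1 : -4 < m := by nlinarith
    have b2 : m < 4 := by nlinarith
    have h5 : d = 2 ∧ (m = 2 ∨ m = -2) := by
      have := h.d_cases
      interval_cases m <;> omega
    refine ⟨h5.1, ?_⟩
    rcases h5 with ⟨rfl, rfl | rfl⟩
    · left; exact Prod.ext (by simpa using hn) (by rw [hm]; norm_num)
    · right; exact Prod.ext (by simpa using hn) (by rw [hm]; norm_num)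
  · exfalso
    have h4 : 0 ≤ (d : ℚ) / 23 * (B u p.1) ^ 2 := by positivity
    have h5 : 23 * (m * m) ≤ 2 * d := by
      have e : (d : ℚ) * (m / d * (m / d)) = m * m / d := by field_simp
      have : (m : ℚ) * m / d ≤ 2 / 23 := by linarith
      rw [div_le_iff₀ hd] at this
      have : (23 : ℚ) * (m * m) ≤ 2 * d := by linarith
      exact_mod_cast this
    have h6 : m = 0 := by
      by_contra h6
      have := mul_self_pos.2 h6
      omega
    rw [h6] at h1 h2
    exact h.rootless (by simpa using h1) (by simpa using h2)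

theorem ne2 (h : Core ρ B a L u d) : d ≠ 2 := by
  rintro rfl
  have := h.ctx.fd
  have hpd := h.ext_pd
  set B' := extB B 2 with hB'
  set Λ := lam L u 2 with hΛ
  set v : V × ℚ := ((1 / 2 : ℚ) • u, 3 / 4) with hv
  set w : V × ℚ := (0, 1) with hw
  have hint : Λ ≤ dual B' Λ := int_of_even hpd h.lam_even
  have hv2 : (2 : ℤ) • v ∈ Λ := by
    refine ⟨3, ?_, by simp [hv]; norm_num⟩
    convert (h.ord (-2)).2 (by norm_num) using 1
    simp only [hv, Prod.smul_fst, zsmul_eq]
    module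
  have hvv : B' v v = 4 := by
    simp only [hB', hv, extB_apply, map_smul, LinearMap.smul_apply, h.norm, smul_eq_mul]
    norm_num
  have hwv : B' w v = 3 / 2 := by
    simp only [hB', hv, hw, extB_apply, map_zero, LinearMap.zero_apply]
    norm_num
  have n32 : (3 / 2 : ℚ) ∉ Z := fun h0 => by
    obtain ⟨n, hn⟩ := memZ.1 h0
    have : 2 * n = 3 := by
      have : (2 : ℚ) * n = 3 := by rw [hn]; norm_num
      exact_mod_cast this
    omega
  have hhalf : ∀ y ∈ Λ, B' y v ∈ Z ∨ B' y v - 3 / 2 ∈ Z := by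
    intro y hy
    obtain ⟨n, hn⟩ := memZ.1 (hint hy _ hv2)
    rw [map_zsmul, zsmul_eq_mul] at hn
    push_cast at hn
    rcases Int.even_or_odd' n with ⟨k, rfl | rfl⟩
    · left; exact memZ.2 ⟨k, by push_cast at hn; linarith⟩
    · right; exact memZ.2 ⟨k - 1, by push_cast at hn ⊢; linarith⟩
  let P : Submodule ℤ (V × ℚ) :=
    { carrier := {y | y ∈ Λ ∧ B' y v ∈ Z}
      add_mem' := fun hy hz => ⟨add_mem hy.1 hz.1, by
        rw [map_add, LinearMap.add_apply]; exact add_mem hy.2 hz.2⟩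
      zero_mem' := ⟨zero_mem _, by simp⟩
      smul_mem' := fun r y hy => ⟨Λ.smul_mem _ hy.1, by
        rw [map_zsmul, LinearMap.smul_apply]; exact zsmul_mem hy.2 r⟩ }
  have hP2 : ∀ y ∈ Λ, (2 : ℤ) • y ∈ P := fun y hy => ⟨Λ.smul_mem _ hy, by
    have := hint hy _ hv2
    rwa [map_zsmul, ← LinearMap.smul_apply, ← map_zsmul] at this⟩
  have hPv : (2 : ℤ) • v ∈ P := ⟨hv2, by
    rw [map_zsmul, LinearMap.smul_apply, hvv]; exact memZ.2 ⟨8, by norm_num⟩⟩
  have hPlat : Lat P := h.lam_lat.of_smul_le (fun _ hy => hy.1) two_ne_zero hP2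
  let N : Submodule ℤ (V × ℚ) := P ⊔ Submodule.span ℤ {v}
  have hvN : v ∈ N := Submodule.mem_sup_right (Submodule.mem_span_singleton_self v)
  have hN : ∀ y ∈ N, y ∈ P ∨ y - v ∈ P := by
    intro y hy
    obtain ⟨p, hp, q, hq, rfl⟩ := Submodule.mem_sup.1 hy
    obtain ⟨n, rfl⟩ := Submodule.mem_span_singleton.1 hq
    rcases Int.even_or_odd' n with ⟨k, rfl | rfl⟩
    · left
      convert add_mem hp (P.smul_mem k hPv) using 1
      module
    · right
      convert add_mem hp (P.smul_mem k hPv) using 1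
      module
  have hNe : ∀ y ∈ N, ∃ k : ℤ, B' y y = 2 * k := by
    intro y hy
    rcases hN y hy with h1 | h1
    · exact h.lam_even y h1.1
    · obtain ⟨k, hk⟩ := h.lam_even _ h1.1
      obtain ⟨n, hn⟩ := memZ.1 h1.2
      refine ⟨k + n + 2, ?_⟩
      have : y = (y - v) + v := by abel
      rw [this, hpd.norm_add, hk, ← hn, hvv]
      push_cast; ring
  have hNint := int_of_even hpd hNe
  have self1 : ∀ y ∈ dual B' N, B' y w ∈ Z → y ∈ N := by
    intro y hy hyw
    refine Submodule.mem_sup_left ⟨h.lam_self fun q hq => ?_, hy v hvN⟩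
    rcases hhalf q hq with h1 | h1
    · exact hy q (Submodule.mem_sup_left ⟨hq, h1⟩)
    · have h2 : q - w ∈ P := ⟨sub_mem hq h.w_mem, by
        rw [map_sub, LinearMap.sub_apply, hwv]; exact h1⟩
      have := add_mem (hy _ (Submodule.mem_sup_left h2)) hyw
      rwa [← map_add, sub_add_cancel] at this
  have hU : Uni B' N := by
    refine ⟨h.ext_dim, hpd, hPlat.of_int hpd le_sup_left hNint, fun y hy => ?_, hNe,
      fun y hy h2 => ?_⟩
    · obtain ⟨n, hn⟩ := memZ.1 (hy _ (Submodule.mem_sup_left (hP2 _ h.w_mem)))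
      rw [map_zsmul, zsmul_eq_mul] at hn
      push_cast at hn
      rcases Int.even_or_odd' n with ⟨k, rfl | rfl⟩
      · exact self1 y hy (memZ.2 ⟨k, by push_cast at hn; linarith⟩)
      · have := add_mem (self1 (y - v) (sub_mem hy (hNint hvN)) (memZ.2 ⟨k - 1, by
          rw [map_sub, LinearMap.sub_apply, hpd.symm v, hwv]
          push_cast at hn ⊢; linarith⟩)) hvN
        rwa [sub_add_cancel] at this
    · rcases hN y hy with h1 | h1
      · rcases (h.lam_root h1.1 h2).2 with h3 | h3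
        · exact n32 (by have := h1.2; rwa [h3, hwv] at this)
        · refine n32 ?_
          have := neg_mem h1.2
          rwa [h3, map_neg, LinearMap.neg_apply, neg_neg, hwv] at this
      · have hz := h.lam_dual h1.1
        obtain ⟨m, -, hm⟩ := h1.1
        set z := (y - v).1 with hzdef
        have hy1 : y.1 = z + (1 / 2 : ℚ) • u := by simp [hzdef, hv]
        have hy2 : y.2 = m / 2 + 3 / 4 := by
          have : (y - v).2 = y.2 - 3 / 4 := by simp [hv]
          rw [this] at hm; push_cast at hm; linarith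
        rw [hB', extB_apply, hy1, hy2, h.pd.norm_add] at h2
        simp only [map_smul, LinearMap.smul_apply, h.norm, smul_eq_mul, h.pd.symm z u] at h2
        push_cast at h2
        have h3 : (1 : ℚ) ≤ (2 * m + 3) * (2 * m + 3) := by
          have : (1 : ℤ) ≤ (2 * m + 3) * (2 * m + 3) :=
            mul_self_pos.2 (show 2 * m + 3 ≠ 0 by omega)
          exact_mod_cast this
        rcases h.perp_bound hz with ⟨n, hn⟩ | h4
        · rw [hn, h.norm_zsmul, h.ip_zsmul] at h2
          have h4 : (1 : ℚ) ≤ (2 * n + 1) * (2 * n + 1) := by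
            have : (1 : ℤ) ≤ (2 * n + 1) * (2 * n + 1) :=
              mul_self_pos.2 (show 2 * n + 1 ≠ 0 by omega)
            exact_mod_cast this
          push_cast at h2
          nlinarith
        · push_cast at h4
          nlinarith [sq_nonneg (B u z + 23 / 4)]
  obtain ⟨l, hl, hl4, hle⟩ := hU.leech.2 ((2 : ℤ) • w) (Submodule.mem_sup_left (hP2 _ h.w_mem))
    (by simp [hB', hw, extB_apply]; norm_num)
  have hl2 : l.2 = 1 := by
    simp only [hB', hw, extB_apply, Prod.smul_mk, smul_zero, map_zero] at hle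
    norm_num at hle
    linarith
  have hl1 : B l.1 l.1 = 2 := by
    rw [hB', extB_apply, hl2] at hl4
    push_cast at hl4; linarith
  rcases hN l hl with h1 | h1
  · obtain ⟨m, h2, hm⟩ := h1.1
    have h3 : m = 2 := by
      have : (m : ℚ) = 2 := by rw [hl2] at hm; push_cast at hm; linarith
      exact_mod_cast this
    have := add_mem h2 ((h.ord m).2 (by rw [h3]; norm_num))
    rw [sub_add_cancel] at this
    exact h.rootless this hl1
  · obtain ⟨m, -, hm⟩ := h1.1
    have : (l - v).2 = l.2 - 3 / 4 := by simp [hv]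
    rw [this, hl2] at hm
    have h3 : 2 * m = 1 := by
      have : (2 : ℚ) * m = 1 := by push_cast at hm; linarith
      exact_mod_cast this
    omega

theorem embed (h : Core ρ B a L u d) (t : Cfsg.leechLattice)
    (ht : ∀ v : Cfsg.leechLattice, (Cfsg.sqNorm (v : Cfsg.GolayPt → ℤ) : ℚ) = 8 * d →
      ∃ g : Cfsg.Co0, g • v = t) :
    ∃ f : G →* Multiplicative (ZMod 2) ×
      ↥(Cfsg.Co0 ⊓ MulAction.stabilizer (Equiv.Perm Cfsg.leechLattice) t),
      Function.Injective f := by
  have hd2 := h.ne2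
  obtain ⟨ε, hε⟩ := h.exists_eps_hom (by have := h.d_cases; omega)
  have hU : Uni (extB B d) (lam L u d) := ⟨h.ext_dim, h.ext_pd, h.lam_lat, h.lam_self, h.lam_even,
    fun p hp h2 => hd2 (h.lam_root hp h2).1⟩
  let ψ : G →* Module.End ℚ (V × ℚ) :=
    { toFun := fun g => (tw ρ ε g).prodMap LinearMap.id
      map_one' := by rw [map_one]; rfl
      map_mul' := fun g k => by rw [map_mul]; rfl }
  have hψ : ∀ g p, ψ g p = (tw ρ ε g p.1, p.2) := fun g p => rfl
  obtain ⟨f, hf⟩ := hU.embed ψ (fun g p ⟨m, h1, h2⟩ => ⟨m, by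
      convert add_mem (L.smul_mem (ε g : ℤ) (h.inv g _ h1)) (L.smul_mem m (hε g)) using 1
      simp only [hψ, tw_apply, map_sub, map_zsmul]
      module, h2⟩)
    (fun g p => by simp only [hψ, extB_apply, h.ctx.tw_inv]) h.w_mem
    (fun g => by simp [hψ]) t (fun v hv => ht v (by simpa [extB_apply] using hv))
  have : Fact (Nat.Prime 2) := ⟨Nat.prime_two⟩
  let e : ℤˣ ≃* Multiplicative (ZMod 2) := mulEquivOfPrimeCardEq (p := 2)
    (by rw [Nat.card_eq_fintype_card, Fintype.card_units_int]) (by simp)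
  refine ⟨(e.toMonoidHom.comp ε).prod f, (injective_iff_map_eq_one _).2 fun g hg => ?_⟩
  have h1 : ε g = 1 := e.injective (by rw [map_one]; exact congrArg Prod.fst hg)
  have h2 := hf g (congrArg Prod.snd hg)
  apply h.ctx.inj
  rw [map_one]
  ext x
  have := congrArg Prod.fst (LinearMap.congr_fun h2 (x, 0))
  simpa [hψ, tw_apply, h1] using this

end Core

theorem Ctx.final (h : Ctx ρ B) :
    (∃ f : G →* Multiplicative (ZMod 2) × Cfsg.Spor.Co2, Function.Injective f) ∨
    (∃ f : G →* Multiplicative (ZMod 2) × Cfsg.Spor.Co3, Function.Injective f) := by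
  obtain ⟨B, a, L, u, d, h⟩ := h.exists_core
  rcases h.d_cases with h2 | rfl | rfl
  · exact absurd h2 h.ne2
  · left
    refine h.embed Cfsg.Spor.leechU fun v hv => Cfsg.Agent.S0400.result v _ ?_ (by decide +kernel)
    exact_mod_cast hv
  · right
    refine h.embed Cfsg.Spor.leechV fun v hv => Cfsg.Agent.S0401.result v _ ?_ (by decide +kernel)
    exact_mod_cast hv

end Cfsg.Agent.F23
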